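import Cfsg.Agent.H22.S3A

/-! Amalgams of shape `(S₃, S₃)` with `Ω₁ Z(T)` central in exactly one member: basic facts. -/

set_option autoImplicit false
set_option linter.unusedSectionVars false

namespace Cfsg.Agent.H5d

open Cfsg Subgroup Cfsg.Agent.FT Cfsg.Agent.P22
open scoped commutatorElement

universe u

variable {G : Type u} [Group G] [Finite G] {A B C D H K L P R S T U X Y : Subgroup G} {g t x y v w : G}
variable {V : Type*} [MulAction G V] {Γ : SimpleGraph V} {a b c d e a' b' c' d' : V} {n : ℕ}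

local notation:max "P(" a ")" => MulAction.stabilizer G a
local notation:max "Q(" a ")" => O[{2}](MulAction.stabilizer G a)
local notation:max "W(" a ")" => Vz 2 (MulAction.stabilizer G a)

variable (G) in
/-- vertices whose group centralises its `Z` -/
def Bt (b : V) : Prop := P(b) ≤ C(W(b))

theorem Bt.smul (h : Bt G b) (g : G) : Bt G (g • b) := by
  rw [Bt, W_smul, P_smul, cj_cents]; exact h

theorem bt_smul (g : G) : Bt G (g • b) ↔ Bt G b :=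
  ⟨fun h => by simpa using h.smul g⁻¹, fun h => h.smul g⟩

theorem nW (a : V) : P(a) ≤ N(W(a)) := (Vz_nml 2 _).nrm
theorem nQ (a : V) : P(a) ≤ N(Q(a)) := pcore_nrm _ _
theorem QP (a : V) : Q(a) ≤ P(a) := pcore_le _ _

theorem cjW (hx : x ∈ W(a)) (g : G) : g * x * g⁻¹ ∈ W(g • a) := by
  rw [W_smul]; exact conj_mem_cj.2 hx
theorem cjQ (hx : x ∈ Q(a)) (g : G) : g * x * g⁻¹ ∈ Q(g • a) := by
  rw [Q_smul]; exact conj_mem_cj.2 hx
theorem cjQ' (hx : g * x * g⁻¹ ∈ Q(g • a)) : x ∈ Q(a) := by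
  rw [Q_smul] at hx; exact conj_mem_cj.1 hx
theorem cjW' (hx : g * x * g⁻¹ ∈ W(g • a)) : x ∈ W(a) := by
  rw [W_smul] at hx; exact conj_mem_cj.1 hx

section general
variable (h : S3G G Γ)
include h

theorem mem_Q (hb : Γ.Adj a b) (hc : Γ.Adj a c) (hne : b ≠ c) (h0 : x ∈ P(a)) (h1 : x ∈ P(b)) (h2 : x ∈ P(c)) :
    x ∈ Q(a) :=
  zpowers_le.1 (h.le_Q hb hc hne (zpowers_le.2 ⟨h0, h1⟩) (zpowers_le.2 h2))

theorem QPn (hb : Γ.Adj a b) : Q(a) ≤ P(b) := (h.Q_le hb).trans inf_le_right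

theorem moves (hb : Γ.Adj a b) (hc : Γ.Adj a c) (hne : c ≠ b) (h0 : x ∈ P(a)) (h1 : x ∈ P(b)) (hn : x ∉ Q(a)) :
    Γ.Adj a (x • c) ∧ x • c ≠ c ∧ x • c ≠ b :=
  ⟨h.adj_smul h0 hc, fun e => hn (mem_Q h hb hc hne.symm h0 h1 e),
    fun e => hne (smul_left_cancel x (e.trans h1.symm))⟩

theorem mul_Q (hb : Γ.Adj a b) (hx : x ∈ P(a) ⊓ P(b)) (hy : y ∈ P(a) ⊓ P(b)) (h1 : x ∉ Q(a)) (h2 : y ∉ Q(a)) :
    x * y ∈ Q(a) := mul_mem_two (h.idx hb) hx hy h1 h2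

theorem three (hb : Γ.Adj a b) (hc : Γ.Adj a c) (hd : Γ.Adj a d) (h1 : c ≠ b) (h2 : d ≠ b) (h3 : d ≠ c)
    (he : Γ.Adj a e) : e = b ∨ e = c ∨ e = d := by
  by_contra hn
  push Not at hn
  obtain ⟨g, hg, e1⟩ := h.two_trans hb hc hd h1 h2
  obtain ⟨k, hk, e2⟩ := h.two_trans hb hc he h1 hn.1
  have g1 : g ∉ Q(a) := fun q => h3 (e1.symm.trans (QPn h hc q))
  have k1 : k⁻¹ ∉ Q(a) := fun q => hn.2.1 (e2.symm.trans (QPn h hc ((inv_mem_iff).1 q)))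
  have := QPn h hc (mul_Q h hb (inv_mem hk) hg k1 g1)
  rw [MulAction.mem_stabilizer_iff, mul_smul, e1, inv_smul_eq_iff, e2] at this
  exact hn.2.2 this.symm

theorem swap (hb : Γ.Adj a b) (hc : Γ.Adj a c) (hd : Γ.Adj a d) (h1 : c ≠ b) (h2 : d ≠ b) (h3 : d ≠ c)
    (h0 : x ∈ P(a)) (hx : x ∈ P(b)) (hn : x ∉ Q(a)) : x • c = d := by
  obtain ⟨m1, m2, m3⟩ := moves h hb hc h1 h0 hx hn
  rcases three h hb hc hd h1 h2 h3 m1 with e | e | e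
  exacts [absurd e m3, absurd e m2, e]

theorem gen2 (hb : Γ.Adj a b) (hc : Γ.Adj a c) (hne : b ≠ c) : P(a) ⊓ P(b) ⊔ P(a) ⊓ P(c) = P(a) :=
  h.gen hb hc hne le_rfl ((h.s3 a).not_le (h.syl hc))

theorem gen_elt (hb : Γ.Adj a b) (h0 : x ∈ P(a)) (hn : x • b ≠ b) : P(a) ⊓ P(b) ⊔ ⟪x⟫ = P(a) :=
  (h.s3 a).sup_eq (h.syl hb) (zpowers_le.2 h0) fun e => hn (zpowers_le.1 e).2

theorem T_eq (hb : Γ.Adj a b) (hx : x ∈ P(a) ⊓ P(b)) (hn : x ∉ Q(a)) : Q(a) ⊔ ⟪x⟫ = P(a) ⊓ P(b) :=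
  (h.s3 a).sup_zp (h.syl hb) hx hn

theorem exT (hb : Γ.Adj a b) : ∃ t ∈ P(a) ⊓ P(b), t ∉ Q(a) :=
  SetLike.not_le_iff_exists.1 ((h.s3 a).not_le (h.syl hb))

theorem third (hb : Γ.Adj a b) (hc : Γ.Adj a c) (hne : c ≠ b) : ∃ d, Γ.Adj a d ∧ d ≠ b ∧ d ≠ c :=
  let ⟨_, ht, t1, t2⟩ := h.other2 hb hc hne
  ⟨_, h.adj_smul ht.1 hc, t2, t1⟩

/-- index at most two -/
theorem card_le_two (hb : Γ.Adj a b) (hX : X ≤ P(a) ⊓ P(b)) : #X ≤ 2 * #(X ⊓ Q(a)) := by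
  have h1 := card_inf_mul_relIndex Q(a) X
  have h2 := relIndex_dvd_of_norm hX (inf_le_left.trans (nQ a))
  rw [h.idx hb] at h2
  have := Nat.le_of_dvd two_pos h2
  rw [inf_comm X]
  nlinarith

theorem dist_self (a : V) : Γ.dist a a = 0 := SimpleGraph.dist_self

theorem dist_one (hb : Γ.Adj a b) : Γ.dist a b = 1 := SimpleGraph.dist_eq_one_iff_adj.2 hb

theorem dist_tri (a b c : V) : Γ.dist a c ≤ Γ.dist a b + Γ.dist b c := h.conn.dist_triangle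

end general

variable (G) in
/-- characteristic two, and exactly one end of each edge centralises its `Z` -/
structure S3B (Γ : SimpleGraph V) : Prop extends S3G G Γ where
  ch : ∀ a : V, P(a) ⊓ C(Q(a)) ≤ Q(a)
  typ : ∀ {a b : V}, Γ.Adj a b → (Bt G a ↔ ¬ Bt G b)

variable (G Γ) in
/-- the subgroup generated by the `Z` of the neighbours -/
def VV (b : V) : Subgroup G := ⨆ a : {a // Γ.Adj b a}, W((a : V))

theorem le_VV (ha : Γ.Adj b a) : W(a) ≤ VV G Γ b := le_iSup (fun a : {a // Γ.Adj b a} => W((a : V))) ⟨a, ha⟩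

theorem VV_le : VV G Γ b ≤ X ↔ ∀ a, Γ.Adj b a → W(a) ≤ X :=
  ⟨fun h _ ha => (le_VV ha).trans h, fun h => iSup_le fun a => h a a.2⟩

theorem VV_smul (h : S3G G Γ) (g : G) (b : V) : VV G Γ (g • b) = cj g (VV G Γ b) := by
  have key : ∀ (g : G) (b : V), cj g (VV G Γ b) ≤ VV G Γ (g • b) := fun g b => by
    rw [cj_le_iff, VV_le]
    intro a ha
    rw [← cj_le_iff, ← W_smul]
    exact le_VV (h.smul g ha)
  refine le_antisymm ?_ (key g b)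
  rw [le_cj_iff]
  simpa using key g⁻¹ (g • b)

theorem nVV (h : S3G G Γ) (b : V) : P(b) ≤ N(VV G Γ b) := fun g hg => by
  rw [← cj_eq_self, ← VV_smul h, hg]

namespace S3B
variable (h : S3B G Γ)
include h

theorem bt_of (hb : Γ.Adj a b) (ha : ¬ Bt G a) : Bt G b := by
  by_contra hn
  exact ha ((h.typ hb).2 hn)

theorem at_of (hb : Γ.Adj a b) (ha : Bt G a) : ¬ Bt G b := (h.typ hb).1 ha

theorem abW (a : V) : Abelem 2 W(a) := abelem_Vz (h.ch a)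

theorem W_le (a : V) : W(a) ≤ Q(a) := (Vz_le_Ohm (h.ch a)).trans ((Ohm_le _ _).trans inf_le_left)

theorem Q_cen (a : V) : Q(a) ≤ C(W(a)) :=
  centsC ((Vz_le_Ohm (h.ch a)).trans ((Ohm_le _ _).trans inf_le_right))

theorem sq (hx : x ∈ W(a)) : x * x = 1 := (pow_two x).symm.trans ((h.abW a).pow hx)

theorem inv_eq (hx : x ∈ W(a)) : x⁻¹ = x := inv_eq_of_mul_eq_one_right (h.sq hx)

theorem Q_comm (hx : x ∈ W(a)) (hg : g ∈ Q(a)) : g * x * g⁻¹ = x := by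
  rw [← mem_cen.1 (h.Q_cen a hg) x hx, mul_inv_cancel_right]

theorem W_eq (hb : Γ.Adj b a) (hB : Bt G b) : W(b) = Ω[2](Z(P(b) ⊓ P(a))) :=
  le_antisymm (le_Ohm (le_inf ((h.W_le b).trans (h.Q_le hb)) (centsC (inf_le_left.trans hB)))
    fun _ hx => (h.abW b).pow hx) (le_Vz (h.syl hb))

theorem W_sub (hb : Γ.Adj b a) (hB : Bt G b) : W(b) ≤ W(a) := by
  rw [h.W_eq hb hB, inf_comm P(b) P(a)]
  exact le_Vz (p := 2) (h.syl hb.symm)

theorem mem_W (hb : Γ.Adj b a) (hx : x ∈ P(b) ⊓ P(a)) (h2 : x * x = 1) (hc : x ∈ C(P(b) ⊓ P(a))) : x ∈ W(b) :=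
  le_Vz (h.syl hb) (mem_Ohm (H := Z(P(b) ⊓ P(a))) ⟨hx, hc⟩ ((pow_two x).trans h2))

theorem cenW (ha : ¬ Bt G a) (h1 : X ≤ P(a)) (h2 : X ≤ C(W(a))) : X ≤ Q(a) := by
  refine (le_inf h1 h2).trans ?_
  by_contra hn
  obtain ⟨T, hT⟩ := exists_syl 2 P(a)
  have h3 := (h.s3 a).nml_sup hT (subcent_nml (nW a)) hn
  have h4 : P(a) ≤ C(Ω[2](Z(T))) := h3.ge.trans
    (sup_le (centsC (Ohm_center_le_cen 2 le_rfl)) (inf_le_right.trans (cen_anti (le_Vz hT))))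
  exact ha (centsS (Vz_le_of_nrm hT (cents_norm h4) le_rfl) h4)

theorem cen_mem (ha : ¬ Bt G a) (h1 : x ∈ P(a)) (h2 : x ∈ C(W(a))) : x ∈ Q(a) :=
  zpowers_le.1 (h.cenW ha (zpowers_le.2 h1) (zpowers_le.2 h2))

theorem sup_Q (hb : Γ.Adj a b) : Q(a) ⊔ Q(b) = P(a) ⊓ P(b) :=
  (h.s3 a).sup_eq' (h.syl hb) (h.Q_le' hb) fun e => by
    have h1 := card_mul_relIndex (h.Q_le hb)
    have h2 := card_mul_relIndex (h.Q_le' hb)
    rw [h.idx hb] at h1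
    rw [h.idx' hb] at h2
    have h3 := eq_of_card_eq e (by omega)
    have h4 := h.core hb (h.Q_le hb) (nQ _) (h3 ▸ nQ _)
    have h5 := h.ch a
    rw [h4, cen_bot, inf_top_eq, ← h4] at h5
    exact (h.s3 a).not_le (h.syl hb) (inf_le_left.trans h5)

theorem exQ (hb : Γ.Adj a b) : ∃ g ∈ Q(b), g ∉ Q(a) := by
  by_contra hn
  push Not at hn
  exact (h.s3 a).not_le (h.syl hb) ((h.sup_Q hb).ge.trans (sup_le le_rfl hn))

theorem W_ne (a : V) : W(a) ≠ ⊥ := by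
  obtain ⟨b, hb⟩ := h.ex a
  refine ne_bot_of_le (le_Vz (h.syl hb)) ((h.syl hb).pi.Ohm_center_ne_bot fun e => ?_)
  exact (h.s3 a).not_le (h.syl hb) (e ▸ bot_le)

theorem W_inf (ha : ¬ Bt G a) (hb : Γ.Adj a b) (hc : Γ.Adj a c) (hne : b ≠ c) : W(b) ⊓ W(c) = ⊥ :=
  h.core_cen hb (inf_le_left.trans ((h.W_le b).trans (h.Q_le' hb)))
    ((gen2 h.toS3G hb hc hne).ge.trans (sup_le (centsS inf_le_left (inf_le_right.trans (h.bt_of hb ha)))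
      (centsS inf_le_right (inf_le_right.trans (h.bt_of hc ha))))) (centsS inf_le_left (h.bt_of hb ha))

theorem eq_one (ha : ¬ Bt G a) (hb : Γ.Adj a b) (hc : Γ.Adj a c) (hne : b ≠ c) (h1 : x ∈ W(b)) (h2 : x ∈ W(c)) :
    x = 1 := mem_bot.1 ((h.W_inf ha hb hc hne).le ⟨h1, h2⟩)

/-- an involution of `Q(a)` centralised by `Q(a)` and by `t` -/
theorem cen_W' (hb : Γ.Adj a b) (ht : t ∈ P(a) ⊓ P(b)) (hn : t ∉ Q(a)) (hx : x ∈ Q(a)) (h2 : x * x = 1)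
    (hq : x ∈ C(Q(a))) (e : t * x * t⁻¹ = x) : x ∈ W(b) := by
  refine h.mem_W hb.symm (h.Q_le' hb.symm hx) h2 ?_
  rw [inf_comm, ← T_eq h.toS3G hb ht hn, cen_sup, cen_zpowers]
  exact ⟨hq, mem_cen1.2 (mul_inv_eq_iff_eq_mul.1 e).symm⟩

theorem cen_W (hb : Γ.Adj a b) (ht : t ∈ P(a) ⊓ P(b)) (hn : t ∉ Q(a)) (hx : x ∈ W(a)) (e : t * x * t⁻¹ = x) :
    x ∈ W(b) := h.cen_W' hb ht hn (h.W_le a hx) (h.sq hx) (centsC (h.Q_cen a) hx) e

theorem comm_W (hb : Γ.Adj a b) (ht : t ∈ P(a) ⊓ P(b)) (hx : x ∈ W(a)) : t * x * t⁻¹ * x ∈ W(b) := by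
  by_cases hn : t ∈ Q(a)
  · rw [h.Q_comm hx hn, h.sq hx]; exact one_mem _
  have h1 := conj_mem (nW a ht.1) hx
  refine h.cen_W hb ht hn (mul_mem h1 hx) ?_
  have h2 := h.Q_comm hx (mul_Q h.toS3G hb ht ht hn hn)
  calc t * (t * x * t⁻¹ * x) * t⁻¹ = (t * t * x * (t * t)⁻¹) * (t * x * t⁻¹) := by group
    _ = _ := by rw [h2, (h.abW a).ab.comm hx h1]

theorem comm_W_le (hb : Γ.Adj a b) : ⁅W(a), P(a) ⊓ P(b)⁆ ≤ W(b) := by
  rw [commC]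
  refine comm_le_iff.2 fun t ht x hx => ?_
  rw [commutatorElement_def, h.inv_eq hx]
  exact h.comm_W hb ht hx

theorem card_W_eq (hb : Γ.Adj a b) (hc : Γ.Adj a c) : #W(b) = #W(c) := by
  obtain ⟨g, -, rfl⟩ := h.nbr hb hc
  rw [W_smul, card_cj]

/-- `[Z_a, t] = Z_b` -/
theorem onto (ha : ¬ Bt G a) (hb : Γ.Adj a b) (hc : Γ.Adj a c) (hne : c ≠ b) (ht : t ∈ P(a) ⊓ P(b)) (hn : t ∉ Q(a))
    (hw : w ∈ W(b)) : ∃ x ∈ W(c), w = t * x * t⁻¹ * x := by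
  obtain ⟨m1, m2, -⟩ := moves h.toS3G hb hc hne ht.1 ht.2 hn
  have hca := h.W_sub hc.symm (h.bt_of hc ha)
  let f : W(c) → W(b) := fun x => ⟨t * x * t⁻¹ * x, h.comm_W hb ht (hca x.2)⟩
  have hf : Function.Injective f := fun x y e => by
    have e : t * x * t⁻¹ * x = t * y * t⁻¹ * y := congrArg Subtype.val e
    have h1 : (y : G) * (x : G)⁻¹ = t * ((y : G)⁻¹ * x) * t⁻¹ := by
      calc (y : G) * (x : G)⁻¹ = (t * y * t⁻¹)⁻¹ * (t * y * t⁻¹ * y) * (x : G)⁻¹ := by group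
        _ = _ := by rw [← e]; group
    have h2 := h.eq_one ha hc m1 m2.symm (mul_mem y.2 (inv_mem x.2))
      (h1 ▸ cjW (mul_mem (inv_mem y.2) x.2) t)
    exact Subtype.ext (mul_inv_eq_one.1 h2).symm
  obtain ⟨x, hx⟩ := (Nat.bijective_iff_injective_and_card f).2 ⟨hf, h.card_W_eq hc hb⟩ |>.2 ⟨w, hw⟩
  exact ⟨x, x.2, (congrArg Subtype.val hx).symm⟩

theorem W_sup (ha : ¬ Bt G a) (hb : Γ.Adj a b) (hc : Γ.Adj a c) (hne : b ≠ c) : W(a) = W(b) ⊔ W(c) := by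
  refine le_antisymm (Vz_le_iff.2 fun S hS => ?_)
    (sup_le (h.W_sub hb.symm (h.bt_of hb ha)) (h.W_sub hc.symm (h.bt_of hc ha)))
  obtain ⟨g, hg, rfl⟩ := (h.syl hb).syl_trans hS
  have hd := h.adj_smul hg hb
  have e : cj g (P(a) ⊓ P(b)) = P(g • b) ⊓ P(a) := by rw [cj_inf, cj_of_mem hg, P_smul, inf_comm]
  rw [e, ← h.W_eq hd.symm (h.bt_of hd ha)]
  generalize g • b = d at hd
  by_cases h1 : d = b
  · exact h1 ▸ le_sup_left
  by_cases h2 : d = c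
  · exact h2 ▸ le_sup_right
  obtain ⟨t, ht, hn⟩ := exT h.toS3G hd
  intro w hw
  obtain ⟨x, hx, rfl⟩ := h.onto ha hd hb (Ne.symm h1) ht hn hw
  have := cjW hx t
  rw [swap h.toS3G hd hb hc (Ne.symm h1) (Ne.symm h2) hne.symm ht.1 ht.2 hn] at this
  exact mul_mem (mem_sup_right this) (mem_sup_left hx)

theorem card_W (ha : ¬ Bt G a) (hb : Γ.Adj a b) : #W(a) = #W(b) * #W(b) := by
  obtain ⟨c, hc, hne⟩ := h.other hb
  rw [h.W_sup ha hb hc hne.symm, card_sup_of_inf (cents_norm ((h.abW a).ab.cents (h.W_sub hb.symm (h.bt_of hb ha))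
    (h.W_sub hc.symm (h.bt_of hc ha)))) (h.W_inf ha hb hc hne.symm), h.card_W_eq hc hb]

theorem W_not_le (ha : ¬ Bt G a) (hb : Γ.Adj a b) : ¬ W(a) ≤ W(b) := fun e => by
  obtain ⟨c, hc, hne⟩ := h.other hb
  exact h.W_ne c (eq_bot_of_le (le_inf ((h.W_sub hc.symm (h.bt_of hc ha)).trans e) le_rfl) (h.W_inf ha hb hc hne.symm))

theorem W_inf' (hB : Bt G b) (ha : Γ.Adj b a) (ha' : Γ.Adj b a') (hne : a ≠ a') : W(a) ⊓ W(a') ≤ W(b) := by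
  have hA := h.at_of ha hB
  have hb := ha.symm
  obtain ⟨c, hc, hcb⟩ := h.other hb
  have hI : W(b) ≤ W(a) ⊓ W(a') := le_inf (h.W_sub ha hB) (h.W_sub ha' hB)
  have nb : Q(b) ≤ N(W(a) ⊓ W(a')) := normsI ((QPn h.toS3G ha).trans (nW a)) ((QPn h.toS3G ha').trans (nW a'))
  have nT : P(a) ⊓ P(b) ≤ N(W(a) ⊓ W(a')) :=
    (h.sup_Q hb).ge.trans (sup_le (cents_norm (centsS inf_le_left (h.Q_cen a))) nb)
  intro x hx
  obtain ⟨y, hy, w, hw, rfl⟩ := (mem_sup_norm (cents_norm ((h.abW a).ab.cents (h.W_sub ha hB)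
    (h.W_sub hc.symm (h.bt_of hc hA))))).1 ((h.W_sup hA hb hc hcb.symm).le hx.1)
  have hwI : w ∈ W(a) ⊓ W(a') := (mul_mem_cancel_left (hI hy)).1 hx
  let J : Subgroup G := ⨅ g : P(a), cj (g : G) (W(a) ⊓ W(a'))
  have hJ : J ≤ W(a) ⊓ W(a') := (iInf_le _ 1).trans (cj_one _).le
  have nJ : P(a) ≤ N(J) := fun g hg => mem_nrm_of_cj_le (le_iInf fun k => by
    rw [cj_le_iff, cj_cj]
    exact iInf_le (fun g : P(a) => cj (g : G) (W(a) ⊓ W(a'))) ⟨g⁻¹ * k, mul_mem (inv_mem hg) k.2⟩)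
  have hwJ : w ∈ J := mem_iInf.2 fun g => by
    rw [mem_cj]
    have h1 := cjW hw (g : G)⁻¹
    have h2 := h.adj_smul (inv_mem g.2) hc
    rw [inv_inv] at h1
    by_cases e : (g : G)⁻¹ • c = b
    · exact hI (e ▸ h1)
    obtain ⟨s, hs, e2⟩ := h.two_trans hb hc h2 hcb e
    have h3 : (g : G) * s ∈ P(c) := by rw [MulAction.mem_stabilizer_iff, mul_smul, e2, smul_inv_smul]
    have h4 := mem_cen.1 (h.bt_of hc hA h3) w hw
    have h5 : (g : G)⁻¹ * w * g = s * w * s⁻¹ := by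
      calc (g : G)⁻¹ * w * g = (g : G)⁻¹ * (w * (g * s)) * s⁻¹ := by group
        _ = _ := by rw [h4]; group
    exact h5 ▸ conj_mem (nT hs) hwI
  have hJ1 := h.core hb (hJ.trans (inf_le_left.trans ((h.W_le a).trans (h.Q_le hb)))) nJ
    ((gen2 h.toS3G ha ha' hne).ge.trans (sup_le (inf_le_right.trans nJ) ((h.sup_Q ha').ge.trans
      (sup_le ((QPn h.toS3G ha).trans nJ) (cents_norm (centsS (hJ.trans inf_le_right) (h.Q_cen a')))))))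
  rw [mem_bot.1 (hJ1.le hwJ), mul_one]
  exact hy

/-- an element of `Z_a` centralised by an element moving `a` lies in `Z_b` -/
theorem fix_W (hB : Bt G b) (ha : Γ.Adj b a) (hg : g ∈ P(b)) (hn : g • a ≠ a) (hx : x ∈ W(a))
    (e : g * x * g⁻¹ = x) : x ∈ W(b) :=
  h.W_inf' hB ha (h.adj_smul hg ha) hn.symm ⟨hx, e ▸ cjW hx g⟩

end S3B

end Cfsg.Agent.H5d
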