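import Cfsg.Agent.H5.Am1

/-! Arcs, local arc transitivity and the critical distance. -/

set_option autoImplicit false
set_option linter.unusedSectionVars false

namespace Cfsg.Agent.H5d

open Cfsg Subgroup Cfsg.Agent.FT Cfsg.Agent.P22
open scoped commutatorElement

universe u

variable {G : Type u} [Group G] [Finite G] {A B C D H K L P R S T U X Y : Subgroup G} {g t x y v w : G}
variable {V : Type*} [MulAction G V] {Γ : SimpleGraph V} {a b c d e a' b' c' d' : V} {n m k i j : ℕ}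
  {f f' : ℕ → V}

local notation:max "P(" a ")" => MulAction.stabilizer G a
local notation:max "Q(" a ")" => O[{2}](MulAction.stabilizer G a)
local notation:max "W(" a ")" => Vz 2 (MulAction.stabilizer G a)

/-- a walk of length `m` without backtracking -/
structure Arc (Γ : SimpleGraph V) (f : ℕ → V) (m : ℕ) : Prop where
  adj : ∀ i, i < m → Γ.Adj (f i) (f (i + 1))
  ne : ∀ i, i + 2 ≤ m → f (i + 2) ≠ f i

/-- prepend a vertex -/
def cons (c : V) (f : ℕ → V) : ℕ → V := fun i => Nat.casesOn i c f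

theorem cons_zero (c : V) (f : ℕ → V) : cons c f 0 = c := rfl
theorem cons_succ (c : V) (f : ℕ → V) (i : ℕ) : cons c f (i + 1) = f i := rfl

namespace Arc

theorem mono (h : Arc Γ f m) (hk : k ≤ m) : Arc Γ f k :=
  ⟨fun i hi => h.adj i (by omega), fun i hi => h.ne i (by omega)⟩

theorem shift (h : Arc Γ f m) (k : ℕ) : Arc Γ (fun i => f (i + k)) (m - k) :=
  ⟨fun i hi => by simpa [Nat.add_right_comm] using h.adj (i + k) (by omega),
    fun i hi => by simpa [Nat.add_right_comm] using h.ne (i + k) (by omega)⟩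

theorem adj' (h : Arc Γ f m) (hi : j = i + 1) (hm : j ≤ m) : Γ.Adj (f i) (f j) := hi ▸ h.adj i (by omega)

theorem ne' (h : Arc Γ f m) (hi : j = i + 2) (hm : j ≤ m) : f j ≠ f i := hi ▸ h.ne i (by omega)

theorem rev (h : Arc Γ f m) : Arc Γ (fun i => f (m - i)) m :=
  ⟨fun i hi => (h.adj' (by omega) (by omega)).symm, fun i hi => (h.ne' (by omega) (by omega)).symm⟩

theorem cons (h : Arc Γ f m) (hc : Γ.Adj (f 0) c) (hne : c ≠ f 1) : Arc Γ (cons c f) (m + 1) :=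
  ⟨fun i hi => by
    rcases i with _ | i
    exacts [hc.symm, h.adj i (by omega)],
   fun i hi => by
    rcases i with _ | i
    exacts [hne.symm, h.ne i (by omega)]⟩

theorem smul (h : Arc Γ f m) (hG : S3G G Γ) (g : G) : Arc Γ (fun i => g • f i) m :=
  ⟨fun i hi => hG.smul g (h.adj i hi), fun i hi e => h.ne i hi (smul_left_cancel g e)⟩

theorem dist (h : Arc Γ f m) (hG : S3G G Γ) (hij : i ≤ j) (hj : j ≤ m) : Γ.dist (f i) (f j) ≤ j - i := by
  induction j, hij using Nat.le_induction with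
  | base => simp
  | succ j hij ih =>
    have h1 := ih (by omega)
    have h2 := dist_tri hG (f i) (f j) (f (j + 1))
    rw [dist_one hG (h.adj j (by omega))] at h2
    omega

theorem dist' (h : Arc Γ f m) (hG : S3G G Γ) (hij : i ≤ j) (hj : j ≤ m) : Γ.dist (f j) (f i) ≤ j - i :=
  SimpleGraph.dist_comm.trans_le (h.dist hG hij hj)

theorem bt (h : Arc Γ f m) (hG : S3B G Γ) (hi : i ≤ m) : Bt G (f i) ↔ (Bt G (f 0) ↔ i % 2 = 0) := by
  induction i with
  | zero => simp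
  | succ i ih =>
    have h1 := ih (by omega)
    have h2 := hG.typ (h.adj i (by omega))
    have h3 : (i + 1) % 2 = 0 ↔ ¬ i % 2 = 0 := by omega
    rw [h3]
    tauto

theorem at_even (h : Arc Γ f m) (hG : S3B G Γ) (h0 : ¬ Bt G (f 0)) (hi : i ≤ m) (he : i % 2 = 0) : ¬ Bt G (f i) := by
  rw [h.bt hG hi]; tauto

theorem bt_odd (h : Arc Γ f m) (hG : S3B G Γ) (h0 : ¬ Bt G (f 0)) (hi : i ≤ m) (he : i % 2 = 1) : Bt G (f i) := by
  have : ¬ i % 2 = 0 := by omega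
  rw [h.bt hG hi]; tauto

end Arc

theorem geod (h : S3G G Γ) (c : V) : ∀ (n : ℕ) (a : V), Γ.dist a c = n →
    ∃ f : ℕ → V, f 0 = a ∧ f n = c ∧ Arc Γ f n ∧ ∀ i ≤ n, Γ.dist (f i) c = n - i := by
  intro n
  induction n with
  | zero => exact fun a e => ⟨fun _ => a, rfl, h.conn.dist_eq_zero_iff.1 e, ⟨by simp, by simp⟩, by simpa using e⟩
  | succ n ih =>
    intro a e
    obtain ⟨b, hb, e1⟩ := H22.exists_adj_dist h.conn e
    obtain ⟨f, f0, fn, fa, fd⟩ := ih b e1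
    have hd : ∀ i ≤ n + 1, Γ.dist (cons a f i) c = n + 1 - i := fun i hi => by
      rcases i with _ | i
      · exact e
      · rw [cons_succ, fd i (by omega)]; omega
    refine ⟨cons a f, rfl, fn, ⟨fun i hi => ?_, fun i hi e2 => ?_⟩, hd⟩
    · rcases i with _ | i
      exacts [show Γ.Adj a (f 0) from f0.symm ▸ hb, fa.adj i (by omega)]
    · have h1 := hd (i + 2) hi
      rw [e2, hd i (by omega)] at h1
      omega

variable (G Γ) in
/-- some arc of length `m` has a stabiliser moving the remaining neighbours of its first vertex -/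
def Ex (m : ℕ) (B : Prop) : Prop :=
  ∃ f x, Arc Γ f m ∧ (Bt G (f 0) ↔ B) ∧ (∀ i ≤ m, x ∈ P(f i)) ∧ x ∉ Q(f 0)

variable (G Γ) in
/-- transitivity on arcs -/
def Tr (m : ℕ) : Prop :=
  ∀ f f', Arc Γ f m → Arc Γ f' m → (Bt G (f 0) ↔ Bt G (f' 0)) → ∃ g : G, ∀ i ≤ m, g • f i = f' i

variable (G Γ) in
/-- all arc stabilisers move -/
def Mv (m : ℕ) : Prop := ∀ f, Arc Γ f m → ∃ x, (∀ i ≤ m, x ∈ P(f i)) ∧ x ∉ Q(f 0)

theorem Ex.mono {B : Prop} (h : Ex G Γ m B) (hk : k ≤ m) : Ex G Γ k B :=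
  let ⟨f, x, h1, h2, h3, h4⟩ := h
  ⟨f, x, h1.mono hk, h2, fun i hi => h3 i (hi.trans hk), h4⟩

namespace S3B
variable (h : S3B G Γ)
include h

theorem conj_type (e : Bt G a ↔ Bt G c) : ∃ g : G, g • a = c := by
  obtain ⟨b, hb⟩ := h.ex a
  obtain ⟨g, e1 | e1⟩ := h.edge c hb
  · exact ⟨g, e1⟩
  · have := h.typ hb
    rw [← e1, bt_smul] at e
    tauto

theorem mv_of (ht : Tr G Γ m) (h1 : Ex G Γ m True) (h2 : Ex G Γ m False) : Mv G Γ m := fun f hf => by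
  have key : ∀ B : Prop, Ex G Γ m B → (Bt G (f 0) ↔ B) → ∃ x, (∀ i ≤ m, x ∈ P(f i)) ∧ x ∉ Q(f 0) := by
    rintro B ⟨e, x, a1, a2, a3, a4⟩ hB
    obtain ⟨g, hg⟩ := ht e f a1 hf (a2.trans hB.symm)
    refine ⟨g * x * g⁻¹, fun i hi => ?_, fun q => a4 (cjQ' (by rwa [hg 0 (Nat.zero_le _)]))⟩
    rw [← hg i hi, P_smul]
    exact conj_mem_cj.2 (a3 i hi)
  by_cases hB : Bt G (f 0)
  exacts [key _ h1 (iff_true_intro hB), key _ h2 (iff_false_intro hB)]

theorem tr_succ (ht : Tr G Γ m) (hm : Mv G Γ m) : Tr G Γ (m + 1) := fun f f' hf hf' e => by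
  have a1 := hf.adj 0 (by omega)
  have a2 := hf'.adj 0 (by omega)
  have s1 := hf.shift 1
  have s2 := hf'.shift 1
  rw [Nat.add_sub_cancel] at s1 s2
  obtain ⟨g, hg⟩ := ht _ _ s1 s2 (by
    have b1 := h.typ a1
    have b2 := h.typ a2
    simp only [zero_add] at b1 b2 ⊢
    tauto)
  have g1 : g • f 1 = f' 1 := hg 0 (Nat.zero_le _)
  have a3 : Γ.Adj (f' 1) (g • f 0) := g1 ▸ h.smul g a1.symm
  suffices ∃ x, (∀ i ≤ m, x ∈ P(f' (i + 1))) ∧ x • g • f 0 = f' 0 by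
    obtain ⟨x, hx, e⟩ := this
    refine ⟨x * g, fun i hi => ?_⟩
    rcases i with _ | i
    · rw [mul_smul, e]
    · rw [mul_smul, hg i (by omega)]; exact hx i (by omega)
  rcases Nat.eq_zero_or_pos m with rfl | hm0
  · obtain ⟨x, hx, e⟩ := h.nbr a3 a2.symm
    exact ⟨x, fun i hi => by rwa [Nat.le_zero.1 hi], e⟩
  by_cases e1 : g • f 0 = f' 0
  · exact ⟨1, fun _ _ => one_mem _, by rw [one_smul, e1]⟩
  obtain ⟨x, hx, hn⟩ := hm _ s2
  have g2 : g • f 2 = f' 2 := hg 1 hm0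
  refine ⟨x, hx, swap h.toS3G (hf'.adj 1 (by omega)) a3 a2.symm (fun e2 => ?_) (hf'.ne 0 (by omega)).symm
    (Ne.symm e1) (hx 0 (Nat.zero_le _)) (hx 1 hm0) hn⟩
  exact hf.ne 0 (by omega) (smul_left_cancel g (g2.trans e2.symm))

theorem arc_tr (h1 : Ex G Γ m True) (h2 : Ex G Γ m False) : Mv G Γ m ∧ Tr G Γ (m + 1) := by
  have key : ∀ k ≤ m, Tr G Γ k := fun k hk => by
    induction k with
    | zero =>
      intro f f' _ _ e
      obtain ⟨g, hg⟩ := h.conj_type e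
      exact ⟨g, fun i hi => by rwa [Nat.le_zero.1 hi]⟩
    | succ k ih =>
      exact h.tr_succ (ih (by omega)) (h.mv_of (ih (by omega)) (h1.mono (by omega)) (h2.mono (by omega)))
  have := h.mv_of (key m le_rfl) h1 h2
  exact ⟨this, h.tr_succ (key m le_rfl) this⟩

end S3B

variable (G) in
/-- `n` is at most the critical distance -/
structure CDB (Γ : SimpleGraph V) (n : ℕ) : Prop extends S3B G Γ where
  lt : ∀ a c : V, Γ.dist a c < n → W(a) ≤ Q(c)

variable (G) in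
/-- a critical arc -/
structure Crit (Γ : SimpleGraph V) (n : ℕ) (f : ℕ → V) : Prop where
  arc : Arc Γ f n
  at0 : ¬ Bt G (f 0)
  nle : ¬ W(f 0) ≤ Q(f n)

theorem S3B.exists_crit (h : S3B G Γ) : ∃ n f, CDB G Γ n ∧ Crit G Γ n f ∧ 1 ≤ n := by
  classical
  have hex : ∃ n, ∃ a a' : V, Γ.dist a a' = n ∧ ¬ W(a) ≤ Q(a') := by
    by_contra hn
    have hn : ∀ a a' : V, W(a) ≤ Q(a') := fun a a' => by_contra fun e => hn ⟨_, a, a', rfl, e⟩
    obtain ⟨a⟩ := h.conn.nonempty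
    obtain ⟨b, hb⟩ := h.ex a
    have nY : ∀ X : Subgroup G, X ≤ N(⨆ c : V, W(c)) := fun X g _ => mem_nrm_of_cj_le (by
      rw [cj_le_iff, iSup_le_iff]
      intro c
      rw [← cj_le_iff, ← W_smul]
      exact le_iSup (fun c : V => W(c)) _)
    exact h.W_ne a (eq_bot_of_le (le_iSup (fun c : V => W(c)) a)
      (h.core hb (iSup_le fun c => (hn c a).trans (h.Q_le hb)) (nY _) (nY _)))
  obtain ⟨a, a', h1, h2⟩ := Nat.find_spec hex
  have hc : CDB G Γ (Nat.find hex) := ⟨h, fun b c hbc => by_contra fun e => Nat.find_min hex hbc ⟨b, c, rfl, e⟩⟩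
  generalize Nat.find hex = n at h1 hc
  obtain ⟨f, rfl, rfl, fa, fd⟩ := geod h.toS3G a' n a h1
  have hn : 1 ≤ n := Nat.pos_of_ne_zero fun e => h2 (by subst e; exact h.W_le _)
  refine ⟨n, f, hc, ⟨fa, fun hB => h2 ((h.W_sub (fa.adj 0 hn) hB).trans (hc.lt _ _ ?_)), h2⟩, hn⟩
  rw [fd _ hn]
  omega

namespace CDB
variable (h : CDB G Γ n)
include h

theorem le_P (hd : Γ.dist a c ≤ n) : W(a) ≤ P(c) := by
  rcases e : Γ.dist c a with _ | m
  · rw [h.conn.dist_eq_zero_iff.1 e]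
    exact Vz_le _ _
  · obtain ⟨c', h1, h2⟩ := H22.exists_adj_dist h.conn e
    rw [SimpleGraph.dist_comm] at e h2
    exact (h.lt _ _ (by omega)).trans (QPn h.toS3G h1.symm)

theorem cen (hd : Γ.dist a c < n) : W(a) ≤ C(W(c)) := (h.lt _ _ hd).trans (h.Q_cen c)

theorem VV_Q (hd : Γ.dist b c + 1 < n) : VV G Γ b ≤ Q(c) := VV_le.2 fun a ha => h.lt _ _ (by
  have := dist_tri h.toS3G a b c
  rw [dist_one h.toS3G ha.symm] at this
  omega)

theorem VV_P (hd : Γ.dist b c + 1 ≤ n) : VV G Γ b ≤ P(c) := VV_le.2 fun a ha => h.le_P (by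
  have := dist_tri h.toS3G a b c
  rw [dist_one h.toS3G ha.symm] at this
  omega)

theorem cen_VV (hd : Γ.dist a b + 1 < n) : W(a) ≤ C(VV G Γ b) := centsC ((h.VV_Q (by
  rwa [SimpleGraph.dist_comm])).trans (h.Q_cen a))

theorem ex_crit (hf : Crit G Γ n f) : Ex G Γ n (n % 2 = 1) := by
  obtain ⟨x, hx, hn⟩ := SetLike.not_le_iff_exists.1 hf.nle
  refine ⟨_, x, hf.arc.rev, ?_, fun i hi => h.le_P ((hf.arc.dist h.toS3G (Nat.zero_le _) (by omega)).trans
    (by omega)) hx, hn⟩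
  have := hf.at0
  have h2 : n % 2 = 1 ↔ ¬ n % 2 = 0 := by omega
  rw [Nat.sub_zero, hf.arc.bt h.toS3B le_rfl, h2]
  tauto

/-- `Z_c ≰ V_{b'}` for `c` at distance three from `b'` -/
theorem not_le_VV (h2 : 2 ≤ n) (ha : ¬ Bt G a) (hb : Γ.Adj a b) (hb' : Γ.Adj a b') (hne : b ≠ b') (hc : Γ.Adj b c)
    (hca : c ≠ a) : ¬ W(c) ≤ VV G Γ b' := fun e => by
  obtain ⟨g, hg, hn⟩ := h.exQ hb.symm
  have gb := QPn h.toS3G hb hg
  obtain ⟨m1, m2, m3⟩ := moves h.toS3G hb.symm hc hca gb (QP a hg) hn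
  have h3 : VV G Γ b ≤ VV G Γ b' := VV_le.2 fun d hd => by
    rcases three h.toS3G hb.symm hc m1 hca m3 m2 hd with rfl | rfl | rfl
    · exact le_VV hb'.symm
    · exact e
    · rw [W_smul]
      exact cj_le_of_nrm (nVV h.toS3G b' (QPn h.toS3G hb' hg)) e
  obtain ⟨k, hk, rfl⟩ := h.nbr hb hb'
  have h4 := eq_of_card_eq h3 (by rw [VV_smul h.toS3G, card_cj])
  have h5 := h.core hb ((h.VV_Q (by rw [dist_self h.toS3G]; omega)).trans (h.Q_le' hb))
    ((gen2 h.toS3G hb hb' hne).ge.trans (sup_le (inf_le_right.trans (nVV h.toS3G b))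
      (inf_le_right.trans (h4 ▸ nVV h.toS3G _)))) (nVV h.toS3G b)
  exact h.W_ne a (eq_bot_of_le (le_VV hb.symm) h5)

end CDB

theorem Crit.smul (hf : Crit G Γ n f) (h : S3G G Γ) (g : G) : Crit G Γ n (fun i => g • f i) :=
  ⟨hf.arc.smul h g, by rw [bt_smul]; exact hf.at0, by rw [W_smul, Q_smul, cj_le_cj]; exact hf.nle⟩

theorem Crit.all (hf : Crit G Γ n f) (ht : Tr G Γ n) (ha : Arc Γ f' n) (h0 : ¬ Bt G (f' 0)) : Crit G Γ n f' := by
  obtain ⟨g, hg⟩ := ht f f' hf.arc ha (iff_of_false hf.at0 h0)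
  refine ⟨ha, h0, ?_⟩
  rw [← hg 0 (Nat.zero_le _), ← hg n le_rfl, W_smul, Q_smul, cj_le_cj]
  exact hf.nle

theorem Tr.mono (h : S3G G Γ) (ht : Tr G Γ (m + 1)) (hm : 1 ≤ m) : Tr G Γ m := fun f f' hf hf' e => by
  have ext : ∀ {f : ℕ → V}, Arc Γ f m → ∃ f₁, Arc Γ f₁ (m + 1) ∧ ∀ i ≤ m, f₁ i = f i := fun {f} hf => by
    obtain ⟨c, hc, hne⟩ := h.other (hf.adj' (i := m - 1) (j := m) (by omega) le_rfl).symm
    have := (hf.rev.cons (c := c) hc hne).rev
    refine ⟨_, this, fun i hi => ?_⟩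
    rw [show m + 1 - i = (m - i) + 1 by omega, cons_succ, show m - (m - i) = i by omega]
  obtain ⟨f₁, a1, e1⟩ := ext hf
  obtain ⟨f₂, a2, e2⟩ := ext hf'
  obtain ⟨g, hg⟩ := ht f₁ f₂ a1 a2 (by rw [e1 0 (Nat.zero_le _), e2 0 (Nat.zero_le _)]; exact e)
  exact ⟨g, fun i hi => by rw [← e1 i hi, ← e2 i hi, hg i (by omega)]⟩

end Cfsg.Agent.H5d
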