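import Cfsg.Agent.H5.Am2

/-! Critical arcs: the order of `Z_β` is two, and an even critical distance is two. -/

set_option autoImplicit false
set_option linter.unusedSectionVars false

namespace Cfsg.Agent.H5d

open Cfsg Subgroup Cfsg.Agent.FT Cfsg.Agent.P22
open scoped commutatorElement

universe u

variable {G : Type u} [Group G] [Finite G] {A B C D H K L P R S T U X Y : Subgroup G} {g t x y v w : G}
variable {V : Type*} [MulAction G V] {Γ : SimpleGraph V} {a b c d e a' b' c' d' : V} {n m k i j : ℕ}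
  {f f' : ℕ → V}

local notation:max "P(" a ")" => MulAction.stabilizer G a
local notation:max "Q(" a ")" => O[{2}](MulAction.stabilizer G a)
local notation:max "W(" a ")" => Vz 2 (MulAction.stabilizer G a)

theorem cop_three (hA : PGrp 2 A) (hx : orderOf x = 3) : Cop A ⟪x⟫ :=
  hA.cop (p'grp_of_not_dvd (by rw [card_zpowers', hx]; decide))

theorem not_mem_three (hA : PGrp 2 A) (hx : orderOf x = 3) : x ∉ A := fun e => by
  have := eq_one_of_mem_inf (cop_three hA hx).inf e (mem_zpowers x)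
  rw [this, orderOf_one] at hx
  omega

theorem three_of (h : S3G G Γ) (hb : Γ.Adj a b) (ht : t ∈ P(a) ⊓ P(b)) (hn : t ∉ Q(a)) (nU : P(a) ≤ N(U))
    (hc : ∀ x ∈ Q(a), ⁅x, t⁆ ∈ U) : ∃ d ∈ P(a), orderOf d = 3 ∧ ⁅Q(a), ⟪d⟫⁆ ≤ U := by
  let C : Subgroup G :=
    { carrier := {g | g ∈ P(a) ∧ ∀ x ∈ Q(a), ⁅x, g⁆ ∈ U}
      one_mem' := ⟨one_mem _, fun x _ => by rw [commutatorElement_one_right]; exact one_mem _⟩
      mul_mem' := fun {g k} hg hk => ⟨mul_mem hg.1 hk.1, fun x hx => by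
        rw [show ⁅x, g * k⁆ = ⁅x, g⁆ * (g * ⁅x, k⁆ * g⁻¹) by simp only [commutatorElement_def]; group]
        exact mul_mem (hg.2 x hx) (conj_mem (nU hg.1) (hk.2 x hx))⟩
      inv_mem' := fun {g} hg => ⟨inv_mem hg.1, fun x hx => by
        rw [show ⁅x, g⁻¹⁆ = g⁻¹ * ⁅x, g⁆⁻¹ * g by simp only [commutatorElement_def]; group]
        exact conj_mem' (nU hg.1) (inv_mem (hg.2 x hx))⟩ }
  have hC : C ⊴ P(a) := ⟨fun _ hg => hg.1, le_nrm_iff.2 fun k hk g hg => ⟨conj_mem (le_nrm _ hk) hg.1, fun x hx => by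
    rw [show ⁅x, k * g * k⁻¹⁆ = k * ⁅k⁻¹ * x * k, g⁆ * k⁻¹ by simp only [commutatorElement_def]; group]
    exact conj_mem (nU hk) (hg.2 _ (conj_mem' (nQ a hk) hx))⟩⟩
  have h1 := (h.s3 a).nml_sup (h.syl hb) hC fun e => hn (e ⟨ht.1, hc⟩)
  have h2 := card_sup_dvd (inf_le_left.trans hC.nrm : P(a) ⊓ P(b) ≤ N(C))
  rw [sup_comm, h1, (h.s3 a).card] at h2
  have h3 : 3 ∣ #C := ((Nat.Prime.dvd_mul Nat.prime_three).1 ((Dvd.intro_left (#Q(a) * 2) (by ring)).trans h2)).resolve_right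
    fun e => by
      obtain ⟨y, hy, o⟩ := exists_elt_of_prime_dvd Nat.prime_three e
      exact not_mem_three (h.syl hb).pi o hy
  obtain ⟨d, hd, o⟩ := exists_elt_of_prime_dvd Nat.prime_three h3
  exact ⟨d, hd.1, o, comm_le_iff.2 fun x hx y hy => (zpowers_le.2 hd hy).2 x hx⟩

theorem Arc.dist2 (h : Arc Γ f m) (hG : S3G G Γ) (H : i ≤ m ∧ j ≤ m ∧ i ≤ j + k ∧ j ≤ i + k) :
    Γ.dist (f i) (f j) ≤ k := by
  rcases le_total i j with e | e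
  · exact (h.dist hG e H.2.1).trans (by omega)
  · exact (h.dist' hG e H.1).trans (by omega)

theorem Arc.ad (h : Arc Γ f m) (i : ℕ) (hi : i < m := by omega) : Γ.Adj (f i) (f (i + 1)) := h.adj i hi
theorem Arc.s (h : Arc Γ f m) (i : ℕ) (hi : i < m := by omega) : Γ.Adj (f (i + 1)) (f i) := (h.adj i hi).symm
theorem Arc.nq (h : Arc Γ f m) (i : ℕ) (hi : i + 2 ≤ m := by omega) : f (i + 2) ≠ f i := h.ne i hi

theorem Arc.al (h : Arc Γ f m) (hG : S3B G Γ) (h0 : ¬ Bt G (f 0)) (i : ℕ) (hi : i ≤ m ∧ i % 2 = 0 := by omega) :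
    ¬ Bt G (f i) := h.at_even hG h0 hi.1 hi.2
theorem Arc.be (h : Arc Γ f m) (hG : S3B G Γ) (h0 : ¬ Bt G (f 0)) (i : ℕ) (hi : i ≤ m ∧ i % 2 = 1 := by omega) :
    Bt G (f i) := h.bt_odd hG h0 hi.1 hi.2

theorem Arc.ext2 (h : Arc Γ f m) (hG : S3G G Γ) (hm : 1 ≤ m) : ∃ c₁ c₂, Arc Γ (H5d.cons c₂ (H5d.cons c₁ f)) (m + 2) := by
  obtain ⟨c₁, h1, h2⟩ := hG.other (h.ad 0)
  obtain ⟨c₂, h3, h4⟩ := hG.other h1.symm
  exact ⟨c₁, c₂, (h.cons h1 h2).cons h3 h4⟩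

theorem Arc.snoc (h : Arc Γ f m) (hm : 1 ≤ m) (hc : Γ.Adj (f m) c) (hne : c ≠ f (m - 1)) :
    ∃ F, Arc Γ F (m + 1) ∧ (∀ i ≤ m, F i = f i) ∧ F (m + 1) = c := by
  refine ⟨_, (h.rev.cons (c := c) hc hne).rev, fun i hi => ?_, by rw [Nat.sub_self, cons_zero]⟩
  rw [show m + 1 - i = (m - i) + 1 by omega, cons_succ, show m - (m - i) = i by omega]

omit [Finite G] in
theorem flip_comm (hx : x * x = 1) (hy : y * y = 1) : x * y * x⁻¹ * y = (y * x * y⁻¹ * x)⁻¹ := by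
  rw [mul_inv_rev, conj_inv, inv_eq_of_mul_eq_one_right hx, inv_eq_of_mul_eq_one_right hy]
  simp only [mul_assoc]

variable (G) in
/-- the central subgroups have order two -/
def Two (V : Type*) [MulAction G V] : Prop := ∀ b : V, Bt G b → #W(b) = 2

variable (G Γ) in
/-- the subgroup generated by the `V ∩ Q_a` of the neighbours -/
def UU (a : V) : Subgroup G := ⨆ b : {b // Γ.Adj a b}, VV G Γ b ⊓ Q(a)

theorem le_UU (hb : Γ.Adj a b) : VV G Γ b ⊓ Q(a) ≤ UU G Γ a :=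
  le_iSup (fun b : {b // Γ.Adj a b} => VV G Γ b ⊓ Q(a)) ⟨b, hb⟩

theorem UU_le (h : ∀ b, Γ.Adj a b → VV G Γ b ⊓ Q(a) ≤ X) : UU G Γ a ≤ X := iSup_le fun b => h b b.2

theorem nUU (h : S3G G Γ) (a : V) : P(a) ≤ N(UU G Γ a) := fun g hg => mem_nrm_of_cj_le (by
  rw [cj_le_iff]
  refine UU_le fun b hb => ?_
  rw [← cj_le_iff, cj_inf, ← VV_smul h, cj_of_mem_nrm (nQ a hg)]
  exact le_UU (h.adj_smul hg hb))

namespace S3B
variable (h : S3B G Γ)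
include h

theorem Q_comm' (hx : x ∈ W(a)) (hg : g ∈ Q(a)) : x * g * x⁻¹ = g := by
  rw [mem_cen.1 (h.Q_cen a hg) x hx, mul_inv_cancel_right]

theorem comm_W' (hb : Γ.Adj a b) (ht : t ∈ P(a) ⊓ P(b)) (t2 : t * t = 1) (hx : x ∈ W(a)) : x * t * x⁻¹ * t ∈ W(b) := by
  rw [flip_comm (h.sq hx) t2]
  exact inv_mem (h.comm_W hb ht hx)

theorem card_W_bt (hb : Bt G b) (hb' : Bt G b') : #W(b) = #W(b') := by
  obtain ⟨g, rfl⟩ := h.conj_type (iff_of_true hb hb')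
  rw [W_smul, card_cj]

theorem two_of (ha : ¬ Bt G a) (hb : Γ.Adj a b) (hd : Γ.Adj c d) (h1 : W(a) ≤ P(c) ⊓ P(d)) (h2 : W(a) ⊓ Q(c) ≤ W(b)) :
    Two G V := fun b' hb' => by
  rw [h.card_W_bt hb' (h.bt_of hb ha)]
  have a1 := card_le_two h.toS3G hd h1
  have a2 := card_le h2
  have a3 := one_lt_card (h.W_ne b)
  rw [h.card_W ha hb] at a1
  nlinarith

end S3B

variable (G) in
/-- an arc that is critical in both directions -/
structure Cr2 (Γ : SimpleGraph V) (n : ℕ) (f : ℕ → V) : Prop where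
  arc : Arc Γ f (n + 1)
  at0 : ¬ Bt G (f 0)
  nle : ¬ W(f 0) ≤ Q(f n)
  nle' : ¬ W(f (n + 1)) ≤ Q(f 1)

theorem Cr2.crit (hf : Cr2 G Γ n f) : Crit G Γ n f := ⟨hf.arc.mono (Nat.le_succ n), hf.at0, hf.nle⟩

theorem Cr2.rev (hf : Cr2 G Γ n f) (h : S3B G Γ) (hn : n % 2 = 1) : Cr2 G Γ n (fun i => f (n + 1 - i)) :=
  ⟨hf.arc.rev, hf.arc.al h hf.at0 _, by rw [Nat.add_sub_cancel_left]; exact hf.nle', by
    rw [Nat.sub_self, Nat.add_sub_cancel]; exact hf.nle⟩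

namespace CDB
section
variable (h : CDB G Γ n)
include h

theorem aQ (hf : Arc Γ f m) (i j : ℕ) (H : i ≤ m ∧ j ≤ m ∧ i < j + n ∧ j < i + n := by omega) : W(f i) ≤ Q(f j) :=
  h.lt _ _ ((hf.dist2 (k := n - 1) h.toS3G (by omega)).trans_lt (by omega))

theorem aP (hf : Arc Γ f m) (i j : ℕ) (H : i ≤ m ∧ j ≤ m ∧ i ≤ j + n ∧ j ≤ i + n := by omega) : W(f i) ≤ P(f j) :=
  h.le_P (hf.dist2 h.toS3G H)

theorem eP (hf : Arc Γ f m) (i j : ℕ) (hx : x ∈ W(f i)) (H : i ≤ m ∧ j ≤ m ∧ i ≤ j + n ∧ j ≤ i + n := by omega) :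
    x ∈ P(f j) := h.aP hf i j H hx

theorem eQ (hf : Arc Γ f m) (i j : ℕ) (hx : x ∈ W(f i)) (H : i ≤ m ∧ j ≤ m ∧ i < j + n ∧ j < i + n := by omega) :
    x ∈ Q(f j) := h.aQ hf i j H hx

theorem aVQ (hf : Arc Γ f m) (i j : ℕ) (H : i ≤ m ∧ j ≤ m ∧ i + 1 < j + n ∧ j + 1 < i + n := by omega) :
    VV G Γ (f i) ≤ Q(f j) :=
  h.VV_Q (by have := hf.dist2 (i := i) (j := j) (k := n - 2) h.toS3G (by omega); omega)

theorem aVP (hf : Arc Γ f m) (i j : ℕ) (H : i ≤ m ∧ j ≤ m ∧ i + 1 ≤ j + n ∧ j + 1 ≤ i + n := by omega) :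
    VV G Γ (f i) ≤ P(f j) :=
  h.VV_P (by have := hf.dist2 (i := i) (j := j) (k := n - 1) h.toS3G (by omega); omega)

theorem adjQ (hn : 2 ≤ n) (hb : Γ.Adj a b) : W(a) ≤ Q(b) := h.lt _ _ (by rw [dist_one h.toS3G hb]; omega)

theorem VV_self (hn : 2 ≤ n) (b : V) : VV G Γ b ≤ Q(b) := h.VV_Q (by rw [dist_self h.toS3G]; omega)

theorem VV_adj (hn : 3 ≤ n) (hb : Γ.Adj a b) : VV G Γ a ≤ Q(b) := h.VV_Q (by rw [dist_one h.toS3G hb]; omega)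

theorem VV_UU (hn : 3 ≤ n) (hb : Γ.Adj a b) : VV G Γ b ≤ UU G Γ a := (le_inf le_rfl (h.VV_adj hn hb.symm)).trans (le_UU hb)

theorem ex_odd (hf : Crit G Γ n f) (hn : n % 2 = 1) : Ex G Γ n True := eq_true hn ▸ h.ex_crit hf

theorem ex_even (hf : Crit G Γ n f) (hn : n % 2 = 0) : Ex G Γ n False :=
  eq_false (by omega : ¬ n % 2 = 1) ▸ h.ex_crit hf

theorem even_rev (hf : Crit G Γ n f) (he : n % 2 = 0) : ¬ W(f n) ≤ Q(f 0) := fun e =>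
  hf.nle (h.cenW (hf.arc.al h.toS3B hf.at0 n) (h.aP hf.arc 0 n) (centsC (e.trans (h.Q_cen _))))

end

theorem ne_one (h : CDB G Γ 1) (hf : Crit G Γ 1 f) : False := by
  obtain ⟨t, ht, hn⟩ := SetLike.not_le_iff_exists.1 hf.nle
  have ha := hf.arc.ad 0
  obtain ⟨d, hd, o, hc⟩ := three_of h.toS3G ha.symm ⟨h.eP hf.arc 0 1 ht, Vz_le _ _ ht⟩ hn (nW _) fun x hx => by
    rw [commutatorElement_def, h.inv_eq ht]
    exact h.comm_W ha (h.Q_le' ha hx) ht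
  have h1 := stable_factor_cent ((zpowers_le.2 hd).trans (nQ _)) (cop_three (pcore_pi _ _) o) hc
    ((zpowers_le.2 hd).trans (h.bt_of ha hf.at0))
  exact not_mem_three (pcore_pi _ _) o (h.ch _ ⟨hd, zpowers_le.1 h1⟩)

theorem even_W (h : CDB G Γ (k + 2)) (hf : Crit G Γ (k + 2) f) (he : k % 2 = 0) : W(f 1) = W(f (k + 1)) := by
  have A := hf.arc
  refine eq_of_card_eq (fun w hw => ?_) (h.card_W_bt (A.be h.toS3B hf.at0 1) (A.be h.toS3B hf.at0 (k + 1)))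
  obtain ⟨x, hx, hn⟩ := SetLike.not_le_iff_exists.1 (h.even_rev hf (by omega))
  obtain ⟨c, hc, hne⟩ := h.other (A.ad 0)
  obtain ⟨y, hy, rfl⟩ := h.onto hf.at0 (A.ad 0) hc hne ⟨h.eP A _ 0 hx, h.eP A _ 1 hx⟩ hn hw
  have hy0 := h.W_sub hc.symm (h.bt_of hc hf.at0) hy
  exact h.comm_W' (A.s (k + 1)) ⟨h.eP A 0 _ hy0, h.eP A 0 _ hy0⟩ (h.sq hy) hx

theorem even_two (h : CDB G Γ (k + 2)) (hf : Crit G Γ (k + 2) f) (he : k % 2 = 0) : Two G V := by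
  have A := hf.arc
  obtain ⟨x, hx, hn⟩ := SetLike.not_le_iff_exists.1 (h.even_rev hf (by omega))
  exact h.two_of hf.at0 (A.ad 0) (A.s (k + 1)) (le_inf (h.aP A 0 _) (h.aP A 0 _)) fun v hv =>
    h.cen_W (A.ad 0) ⟨h.eP A _ 0 hx, h.eP A _ 1 hx⟩ hn hv.1 (h.Q_comm' hx hv.2)

theorem even_big (h : CDB G Γ (k + 4)) (hf : Crit G Γ (k + 4) f) (he : k % 2 = 0) : False := by
  have A := hf.arc
  have a0 := hf.at0
  have hW : W(f 1) = W(f (k + 3)) := even_W (k := k + 2) h hf (by omega)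
  obtain ⟨c₁, c₂, F⟩ := A.ext2 h.toS3G (by omega)
  have h1 : W(c₂) ≤ Q(f (k + 2)) := by
    refine h.cenW (A.al h.toS3B a0 _) (h.aP F 0 (k + 4)) ?_
    rw [h.W_sup (A.al h.toS3B a0 (k + 2)) (A.s (k + 1)) (A.ad (k + 2)) (A.nq (k + 1)).symm, ← hW]
    exact centsY ((h.aQ F 0 (k + 3)).trans (h.Q_cen _)) ((h.aQ F 0 3).trans (h.Q_cen _))
  by_cases h2 : W(c₂) ≤ Q(f (k + 3))
  · obtain ⟨x, hx, hn⟩ := SetLike.not_le_iff_exists.1 (h.even_rev hf (by omega))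
    have x0 := h.eP A _ 0 hx
    have b1 : Γ.Adj (f 0) c₁ := F.s 1
    obtain ⟨m1, m2, -⟩ := moves h.toS3G (A.ad 0) b1 (F.nq 1).symm x0 (h.eP A _ 1 hx) hn
    refine h.not_le_VV (by omega) a0 m1 b1 m2 (h.smul x (F.s 0)) (fun e => F.ne 0 (by omega) (smul_left_cancel x (x0.trans e.symm))) ?_
    rw [W_smul]
    intro _ hv'
    obtain ⟨v, hv, rfl⟩ := mem_cj'.1 hv'
    have h3 := h.comm_W' (A.s (k + 3)) (h.Q_le' (A.s (k + 3)) (h2 hv)) (h.sq hv) hx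
    rw [← hW] at h3
    exact (mul_mem_cancel_right (le_VV (F.s 0) hv)).1 (le_VV b1.symm (h.W_sub (A.s 0) (A.be h.toS3B a0 1) h3))
  obtain ⟨w, hw, hn⟩ := SetLike.not_le_iff_exists.1 h2
  have e1 : Ex G Γ (k + 3) True := ⟨_, w, (A.mono (by omega)).rev, iff_true_intro (A.be h.toS3B a0 _), fun i hi => by
    rcases Nat.eq_zero_or_pos i with rfl | hi0
    exacts [QPn h.toS3G (A.ad (k + 2)) (h1 hw), h.eP F 0 (k + 3 - i + 2) hw], hn⟩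
  obtain ⟨z, hz, hn⟩ := (h.arc_tr (e1.mono (by omega : k + 1 ≤ k + 3))
    ((h.ex_even hf (by omega)).mono (by omega))).1 _ ((A.mono (by omega : k + 2 ≤ k + 4)).rev.mono (by omega))
  have z0 : z ∈ P(f (k + 2)) := hz 0 (by omega)
  have z1 : z ∈ P(f (k + 1)) := hz 1 (by omega)
  have z2 : z ∈ P(f 1) := by simpa using hz (k + 1) le_rfl
  obtain ⟨m1, m2, -⟩ := moves h.toS3G (A.s (k + 1)) (A.ad (k + 2)) (A.nq (k + 1)) z0 z1 hn
  have h3 := h.W_inf (A.al h.toS3B a0 (k + 2)) m1 (A.ad (k + 2)) m2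
  rw [W_smul, ← hW, cj_of_mem_nrm (nW _ z2), inf_idem] at h3
  exact h.W_ne _ h3

theorem exists_cr2 (h : CDB G Γ (k + 3)) (hf : Crit G Γ (k + 3) f) (he : k % 2 = 0) :
    ∃ F, Cr2 G Γ (k + 3) F ∧ ∀ i ≤ k + 3, F i = f i := by
  have A := hf.arc
  have a0 := hf.at0
  have key : ∀ {d}, Γ.Adj (f (k + 3)) d → d ≠ f (k + 2) → ∃ F, Arc Γ F (k + 4) ∧ (∀ i ≤ k + 3, F i = f i) ∧
      F (k + 4) = d := fun hd hne => A.snoc (by omega) hd hne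
  by_contra hn
  have h1 : ∀ d, Γ.Adj (f (k + 3)) d → d ≠ f (k + 2) → W(d) ≤ Q(f 1) := fun d hd hne => by
    by_contra e
    obtain ⟨F, f1, f2, rfl⟩ := key hd hne
    exact hn ⟨F, ⟨f1, by rwa [f2 0 (by omega)], by rw [f2 0 (by omega), f2 _ le_rfl]; exact hf.nle,
      by rwa [f2 1 (by omega)]⟩, f2⟩
  obtain ⟨d, hd, hne⟩ := h.other (A.s (k + 2))
  have bn := A.be h.toS3B a0 (k + 3)
  have h2 : ¬ W(d) ≤ Q(f 0) := fun e => by
    obtain ⟨y, hy, hn⟩ := SetLike.not_le_iff_exists.1 hf.nle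
    have y0 := h.eP A 0 (k + 3) hy
    exact h.W_not_le (h.at_of hd bn) hd.symm fun v hv => h.fix_W bn hd y0
      (moves h.toS3G (A.s (k + 2)) hd hne y0 (h.eP A 0 _ hy) hn).2.1 hv (h.Q_comm' hy (e hv))
  obtain ⟨x, hx, hn⟩ := SetLike.not_le_iff_exists.1 h2
  obtain ⟨F, f1, f2, rfl⟩ := key hd hne
  have F0 : ¬ Bt G (F 0) := by rwa [f2 0 (by omega)]
  have e1 : Ex G Γ (k + 3) False := ⟨F, x, f1.mono (by omega), iff_false_intro F0, fun i hi => by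
    rcases Nat.eq_zero_or_pos i with rfl | hi0
    · rw [f2 0 hi]
      exact QPn h.toS3G (A.s 0) (h1 _ hd hne hx)
    · exact h.eP f1 _ i hx, by rwa [f2 0 (by omega)]⟩
  have h3 := hf.all (Tr.mono h.toS3G (h.arc_tr (h.ex_odd hf (by omega)) e1).2 (by omega)) (f1.rev.mono (by omega))
    (f1.al h.toS3B F0 _)
  refine h3.nle ?_
  rw [show k + 4 - (k + 3) = 1 by omega, f2 1 (by omega)]
  exact h1 _ hd hne

/-- critical arcs can be shifted backwards -/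
theorem prop (h : CDB G Γ (k + 3)) (hf : Cr2 G Γ (k + 3) f) (he : k % 2 = 0) :
    ∃ c₁ c₂, Arc Γ (cons c₂ (cons c₁ f)) (k + 6) ∧ ¬ W(c₂) ≤ Q(f (k + 1)) := by
  have A := hf.arc
  have a0 := hf.at0
  have al : ∀ {c₁ c₂}, Arc Γ (cons c₂ (cons c₁ f)) (k + 6) → ¬ Bt G c₂ := fun F =>
    h.at_of (F.s 0) (h.bt_of (F.s 1) a0)
  by_cases hE : Ex G Γ (k + 3) False
  · obtain ⟨c₁, c₂, F⟩ := A.ext2 h.toS3G (by omega)
    exact ⟨c₁, c₂, F, (hf.crit.all (Tr.mono h.toS3G (h.arc_tr (h.ex_odd hf.crit (by omega)) hE).2 (by omega))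
      (F.mono (by omega)) (al F)).nle⟩
  by_contra hn
  have hU : ∀ i ≤ k + 3, UU G Γ (f 0) ≤ P(f i) := fun i hi => UU_le fun b hb => inf_le_left.trans (by
    by_cases e : b = f 1
    · exact e ▸ h.aVP A 1 i
    refine VV_le.2 fun c hc => ?_
    by_cases e2 : c = f 0
    · exact e2 ▸ h.aP A 0 i
    have F : Arc Γ (cons c (cons b f)) (k + 6) := (A.cons hb e).cons hc e2
    have h1 : W(c) ≤ Q(f (k + 1)) := by_contra fun e => hn ⟨b, c, F, e⟩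
    have h2 : ∀ j ≤ k + 4, W(c) ≤ P(cons c (cons b f) j) := fun j hj => by
      rcases Nat.lt_or_eq_of_le hj with e | rfl
      exacts [h.aP F 0 j, h1.trans (QPn h.toS3G (A.ad (k + 1)))]
    rcases Nat.lt_or_eq_of_le hi with e | rfl
    · exact h2 (i + 2) (by omega)
    refine le_trans (by_contra fun e => ?_) (QPn h.toS3G (A.ad (k + 2)))
    obtain ⟨w, hw, hn⟩ := SetLike.not_le_iff_exists.1 e
    exact hE (Ex.mono ⟨_, w, (F.mono (by omega : k + 4 ≤ k + 6)).rev, iff_false_intro (A.al h.toS3B a0 (k + 2)),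
      fun j _ => h2 _ (by omega) hw, hn⟩ (by omega)))
  have h3 : ∀ u ∈ UU G Γ (f 0), u ∈ Q(f (k + 3)) → u ∈ Q(f (k + 4)) := fun u hu hq => by_contra fun e =>
    hE (Ex.mono ⟨_, u, A.rev, iff_false_intro (A.al h.toS3B a0 _), fun j _ => by
      rcases Nat.eq_zero_or_pos j with rfl | hj
      exacts [QPn h.toS3G (A.ad (k + 3)) hq, hU _ (by omega) hu], e⟩ (by omega))
  obtain ⟨x, hx, hxn⟩ := SetLike.not_le_iff_exists.1 hf.nle'
  obtain ⟨y, hy, hyn⟩ := SetLike.not_le_iff_exists.1 hf.nle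
  have x1 := h.eP A _ 1 hx
  obtain ⟨m1, m2, -⟩ := moves h.toS3G (A.ad 1) (A.s 0) (A.nq 0).symm x1 (h.eP A _ 2 hx) hxn
  have hV := h.VV_UU (by omega) (A.ad 0)
  have yU := hV (le_VV (A.s 0) hy)
  have h4 : x ∈ N(UU G Γ (f 0)) := mem_nrm.2 fun u hu => by
    by_cases e : u ∈ Q(f (k + 3))
    · rwa [h.Q_comm' hx (h3 u hu e)]
    have h5 := h.Q_comm' hx (h3 _ (mul_mem yU hu) (mul_Q h.toS3G (A.s (k + 2)) ⟨h.eP A 0 _ hy, h.eP A 0 _ hy⟩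
      ⟨hU _ le_rfl hu, hU _ (by omega) hu⟩ hyn e))
    rw [show x * u * x⁻¹ = (x * y * x⁻¹)⁻¹ * (x * (y * u) * x⁻¹) by group, h5]
    exact mul_mem (inv_mem (hV (le_VV m1 (cjW hy x)))) (mul_mem yU hu)
  exact h.W_ne _ (eq_bot_of_le ((le_VV (A.s 0)).trans hV) (h.core (A.ad 0) (le_inf (hU 0 (by omega)) (hU 1 (by omega)))
    (nUU h.toS3G _) ((gen_elt h.toS3G (A.s 0) x1 m2).ge.trans
      (sup_le (inf_le_right.trans (nUU h.toS3G _)) (zpowers_le.2 h4)))))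

theorem exists_u (h : CDB G Γ (k + 5)) (hf : Cr2 G Γ (k + 5) f) (he : k % 2 = 0) :
    ∃ u ∈ P(f (k + 3)), u • f (k + 4) ≠ f (k + 4) ∧ u ∈ C(VV G Γ (f 1)) := by
  have A := hf.arc
  obtain ⟨c₁, c₂, F, hn⟩ := prop (k := k + 2) h hf (by omega)
  obtain ⟨u, hu, hn⟩ := SetLike.not_le_iff_exists.1 hn
  have u1 := h.eP F 0 (k + 5) hu
  exact ⟨u, u1, (moves h.toS3G (A.s (k + 2)) (A.ad (k + 3)) (A.nq (k + 2)) u1 (h.eP F 0 (k + 4) hu) hn).2.1,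
    centsC ((h.aVQ F 3 0).trans (h.Q_cen _)) hu⟩

theorem odd_inf (h : CDB G Γ (k + 5)) (hf : Cr2 G Γ (k + 5) f) (he : k % 2 = 0) (h1 : x ∈ VV G Γ (f 1))
    (h2 : x ∈ W(f (k + 4))) : x ∈ W(f (k + 3)) := by
  obtain ⟨u, u1, u2, u3⟩ := h.exists_u hf he
  exact h.fix_W (hf.arc.be h.toS3B hf.at0 _) (hf.arc.ad _) u1 u2 h2 (by rw [← mem_cen.1 u3 x h1, mul_inv_cancel_right])

theorem odd_W (h : CDB G Γ (k + 3)) (hf : Cr2 G Γ (k + 3) f) (he : k % 2 = 0) (h1 : x ∈ W(f 1))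
    (h2 : x ∈ W(f (k + 3))) : x = 1 := by
  have A := hf.arc
  have a0 := hf.at0
  refine h.eq_one (A.al h.toS3B a0 (k + 2)) (A.s (k + 1)) (A.ad (k + 2)) (A.nq (k + 1)).symm ?_ h2
  rcases Nat.eq_zero_or_pos k with rfl | hk
  · exact h1
  obtain ⟨k, rfl⟩ : ∃ j, k = j + 2 := ⟨k - 2, by omega⟩
  exact odd_inf h hf (by omega) (le_VV (A.s 0) (h.W_sub (A.s 0) (A.be h.toS3B a0 1) h1))
    (h.W_sub (A.s _) (A.be h.toS3B a0 _) h2)

theorem odd_two (h : CDB G Γ (k + 3)) (hf : Cr2 G Γ (k + 3) f) (he : k % 2 = 0) : Two G V := by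
  have A := hf.arc
  have a0 := hf.at0
  by_cases h1 : W(f 0) ⊓ Q(f (k + 3)) ≤ Q(f (k + 4))
  · obtain ⟨x, hx, hxn⟩ := SetLike.not_le_iff_exists.1 hf.nle'
    have x1 := h.eP A _ 1 hx
    exact h.two_of a0 (A.ad 0) (A.s (k + 2)) (le_inf (h.aP A 0 _) (h.aP A 0 _)) fun v hv =>
      h.fix_W (A.be h.toS3B a0 1) (A.s 0) x1 (moves h.toS3G (A.ad 1) (A.s 0) (A.nq 0).symm x1 (h.eP A _ 2 hx) hxn).2.1
        hv.1 (h.Q_comm' hx (h1 hv))
  obtain ⟨y, hy, hn⟩ := SetLike.not_le_iff_exists.1 h1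
  have yT := h.Q_le' (A.s (k + 3)) hy.2
  refine h.two_of (A.al h.toS3B a0 (k + 4)) (A.s (k + 3)) (A.ad 1) (le_inf (h.aP A _ _) (h.aP A _ _)) fun v hv =>
    h.cen_W (A.s (k + 3)) yT hn hv.1 ?_
  have := h.odd_W hf he (h.comm_W' (A.ad 0) (h.Q_le' (A.ad 0) hv.2) (h.sq hv.1) hy.1) (h.comm_W (A.s (k + 3)) yT hv.1)
  rw [eq_inv_of_mul_eq_one_left this, h.inv_eq hv.1]

end CDB

end Cfsg.Agent.H5d
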