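import Cfsg.Agent.H5.Am3

/-! An odd critical distance is three, and then `|V_β| = 8`. -/

set_option autoImplicit false
set_option linter.unusedSectionVars false

namespace Cfsg.Agent.H5d

open Cfsg Subgroup Cfsg.Agent.FT Cfsg.Agent.P22
open scoped commutatorElement

universe u

variable {G : Type u} [Group G] [Finite G] {A B C D H K L P R S T U X Y : Subgroup G} {g t x y v w r r' s : G}
variable {V : Type*} [MulAction G V] {Γ : SimpleGraph V} {a b c d e a' b' c' d' : V} {n m k i j : ℕ}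
  {f f' : ℕ → V}

local notation:max "P(" a ")" => MulAction.stabilizer G a
local notation:max "Q(" a ")" => O[{2}](MulAction.stabilizer G a)
local notation:max "W(" a ")" => Vz 2 (MulAction.stabilizer G a)

theorem mul_mem_le_two (h : A ≤ B) (hc : #B ≤ 2 * #A) (hx : x ∈ B) (hy : y ∈ B) (h1 : x ∉ A) (h2 : y ∉ A) : x * y ∈ A := by
  have a1 := card_mul_relIndex h
  have a2 := one_lt_relIndex (fun e => h1 (e hx) : ¬ B ≤ A)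
  have a3 := card_pos A
  exact mul_mem_two (by nlinarith) hx hy h1 h2

theorem Two.eq (h2 : Two G V) (hb : Bt G b) (hx : x ∈ W(b)) (hy : y ∈ W(b)) (h1 : x ≠ 1) (h3 : y ≠ 1) : x * y = 1 :=
  mem_bot.1 (mul_mem_le_two bot_le (by rw [h2 b hb, card_bot']) hx hy (mt mem_bot.1 h1) (mt mem_bot.1 h3))

theorem Two.le (h2 : Two G V) (hb : Bt G b) (hx : x ∈ W(b)) (h1 : x ≠ 1) (hX : x ∈ X) : W(b) ≤ X := fun y hy => by
  by_cases e : y = 1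
  · exact e ▸ one_mem _
  · rw [eq_inv_of_mul_eq_one_right (h2.eq hb hx hy h1 e)]
    exact inv_mem hX

variable (G Γ) in
/-- products of elements of the `Z` of the two neighbours of `b` other than `a` -/
def Rr (b a : V) (r : G) : Prop :=
  ∃ a₁ a₂ w₁ w₂, Γ.Adj b a₁ ∧ Γ.Adj b a₂ ∧ a₁ ≠ a ∧ a₂ ≠ a ∧ a₂ ≠ a₁ ∧ w₁ ∈ W(a₁) ∧ w₁ ∉ W(b) ∧ w₂ ∈ W(a₂) ∧
    w₂ ∉ W(b) ∧ r = w₁ * w₂

theorem Rr.mem (h : Rr G Γ b a r) : r ∈ VV G Γ b := by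
  obtain ⟨a₁, a₂, w₁, w₂, h1, h2, -, -, -, h3, -, h4, -, rfl⟩ := h
  exact mul_mem (le_VV h1 h3) (le_VV h2 h4)

theorem Rr.smul (h : Rr G Γ b a r) (hG : S3G G Γ) (g : G) : Rr G Γ (g • b) (g • a) (g * r * g⁻¹) := by
  obtain ⟨a₁, a₂, w₁, w₂, h1, h2, h3, h4, h5, h6, h7, h8, h9, rfl⟩ := h
  exact ⟨g • a₁, g • a₂, _, _, hG.smul g h1, hG.smul g h2, fun e => h3 (smul_left_cancel g e),
    fun e => h4 (smul_left_cancel g e), fun e => h5 (smul_left_cancel g e), cjW h6 g, mt cjW' h7, cjW h8 g, mt cjW' h9,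
    by group⟩

variable (G Γ) in
/-- the property `|V_β| = 8` -/
def NN : Prop := ∀ b a r, Bt G b → Γ.Adj b a → Rr G Γ b a r → r ∈ W(a)

variable (G Γ) in
/-- the subgroup generated by `Z_a` and the products `Rr` around `a` -/
def U0 (a : V) : Subgroup G := W(a) ⊔ closure {r | ∃ b, Γ.Adj a b ∧ Rr G Γ b a r}

theorem Rr.mem_U0 (h : Rr G Γ b a r) (hb : Γ.Adj a b) : r ∈ U0 G Γ a := mem_sup_right (subset_closure ⟨b, hb, h⟩)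

theorem U0_smul (h : S3G G Γ) (g : G) (a : V) : U0 G Γ (g • a) = cj g (U0 G Γ a) := by
  have key : ∀ (g : G) (a : V), cj g (U0 G Γ a) ≤ U0 G Γ (g • a) := fun g a => by
    rw [cj_le_iff]
    refine sup_le (by rw [← cj_le_iff, ← W_smul]; exact le_sup_left) ((closure_le _).2 ?_)
    rintro r ⟨b, hb, hr⟩
    exact mem_cj.2 (by rw [inv_inv]; exact (hr.smul h g).mem_U0 (h.smul g hb))
  refine le_antisymm ?_ (key g a)
  rw [le_cj_iff]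
  simpa using key g⁻¹ (g • a)

theorem nU0 (h : S3G G Γ) (a : V) : P(a) ≤ N(U0 G Γ a) := fun g hg => by
  rw [← cj_eq_self, ← U0_smul h, hg]

namespace S3B
variable (h : S3B G Γ)
include h

theorem exW (hB : Bt G b) (ha : Γ.Adj b a) : ∃ w ∈ W(a), w ∉ W(b) :=
  SetLike.not_le_iff_exists.1 (h.W_not_le (h.at_of ha hB) ha.symm)

theorem two_mul (h2 : Two G V) (hB : Bt G b) (ha : Γ.Adj b a) (hx : x ∈ W(a)) (hy : y ∈ W(a)) (h3 : x ∉ W(b))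
    (h4 : y ∉ W(b)) : x * y ∈ W(b) :=
  mul_mem_le_two (h.W_sub ha hB) (by rw [h.card_W (h.at_of ha hB) ha.symm, h2 b hB]) hx hy h3 h4

theorem two_not (h2 : Two G V) (hB : Bt G b) (ha : Γ.Adj b a) (h1 : W(b) ≤ X) (h3 : ¬ W(a) ≤ X) (hx : x ∈ W(a))
    (hn : x ∉ W(b)) : x ∉ X := fun e => h3 fun y hy => by
  by_cases e2 : y ∈ W(b)
  exacts [h1 e2, (mul_mem_cancel_left e).1 (h1 (h.two_mul h2 hB ha hx hy hn e2))]

theorem rr_not (hB : Bt G b) (hr : Rr G Γ b a r) : r ∉ W(b) := by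
  obtain ⟨a₁, a₂, w₁, w₂, h1, h2, -, -, h5, h6, -, h8, h9, rfl⟩ := hr
  exact fun e => h9 (h.W_inf' hB h1 h2 h5.symm ⟨(mul_mem_cancel_left h6).1 (h.W_sub h1 hB e), h8⟩)

theorem ex_rr (hB : Bt G b) (h1 : Γ.Adj b c) (h2 : Γ.Adj b d) (hc : c ≠ a) (hd : d ≠ a) (hne : d ≠ c) :
    ∃ x ∈ W(c), ∃ y ∈ W(d), x ∉ W(b) ∧ y ∉ W(b) ∧ Rr G Γ b a (x * y) :=
  let ⟨x, x1, x2⟩ := h.exW hB h1
  let ⟨y, y1, y2⟩ := h.exW hB h2
  ⟨x, x1, y, y1, x2, y2, c, d, x, y, h1, h2, hc, hd, hne, x1, x2, y1, y2, rfl⟩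

theorem mem_W_of (ha : ¬ Bt G a) (hb : Γ.Adj a b) (h1 : r ∈ Q(a)) (h2 : r * r = 1) (h3 : r ∈ C(Q(a)))
    (h4 : ∀ t ∈ P(a) ⊓ P(b), t * r * t⁻¹ * r ∈ W(b)) : r ∈ W(a) := by
  obtain ⟨t, ht, hn⟩ := exT h.toS3G hb
  obtain ⟨c, hc, hne⟩ := h.other hb
  obtain ⟨x, hx, e⟩ := h.onto ha hb hc hne ht hn (h4 t ht)
  have x1 := h.W_sub hc.symm (h.bt_of hc ha) hx
  have x2 := conj_mem (nW a ht.1) x1
  have c1 := mem_cen.1 h3 x (h.W_le a x1)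
  have c2 := h.Q_comm x2 (mul_mem (h.W_le a x1) h1)
  have h5 := h.cen_W' hb ht hn (mul_mem (h.W_le a x1) h1)
    (by rw [mul_assoc, ← mul_assoc r, ← c1, mul_assoc, h2, mul_one, h.sq x1])
    (mul_mem (centsC (h.Q_cen a) x1) h3) (by
      calc t * (x * r) * t⁻¹ = t * x * t⁻¹ * (t * r * t⁻¹ * r) * r⁻¹ := by group
        _ = (t * x * t⁻¹ * (t * x * t⁻¹)) * x * r⁻¹ := by rw [e]; group
        _ = _ := by rw [h.sq x2, one_mul, inv_eq_of_mul_eq_one_right h2])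
  exact (mul_mem_cancel_left x1).1 (h.W_sub hb.symm (h.bt_of hb ha) h5)

theorem par2 (hN : NN G Γ) (hB : Bt G b) (ha : Γ.Adj b a) (h1 : Γ.Adj b c) (h2 : Γ.Adj b d) (hc : c ≠ a) (hd : d ≠ a)
    (hne : d ≠ c) (hs : s ∈ Q(b)) (s1 : s ∈ Q(c)) (s2 : s ∈ Q(d)) : s ∈ Q(a) := by
  by_contra hn
  obtain ⟨x, x1, y, y1, -, -, hr⟩ := h.ex_rr hB h1 h2 hc hd hne
  exact h.rr_not hB hr (h.cen_W ha.symm (h.Q_le' ha.symm hs) hn (hN _ _ _ hB ha hr) (by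
    rw [show s * (x * y) * s⁻¹ = s * x * s⁻¹ * (s * y * s⁻¹) by group, h.Q_comm x1 s1, h.Q_comm y1 s2]))

theorem par1 (hT : Two G V) (hN : NN G Γ) (hB : Bt G b) (ha : Γ.Adj b a) (h1 : Γ.Adj b c) (h2 : Γ.Adj b d) (hc : c ≠ a)
    (hd : d ≠ a) (hne : d ≠ c) (hs : s ∈ Q(b)) (s1 : s ∉ Q(c)) (s2 : s ∉ Q(d)) : s ∈ Q(a) := by
  by_contra hn
  obtain ⟨x, x1, y, y1, x2, y2, hr⟩ := h.ex_rr hB h1 h2 hc hd hne
  have key : ∀ {c : V} {x : G}, Γ.Adj b c → x ∈ W(c) → x ∉ W(b) → s ∉ Q(c) →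
      s * x * s⁻¹ * x ∈ W(b) ∧ s * x * s⁻¹ * x ≠ 1 := fun h1 x1 x2 s1 =>
    ⟨h.comm_W h1.symm (h.Q_le' h1.symm hs) x1, fun e => x2 (h.cen_W h1.symm (h.Q_le' h1.symm hs) s1 x1
      (by rw [eq_inv_of_mul_eq_one_left e, h.inv_eq x1]))⟩
  obtain ⟨k1, k2⟩ := key h1 x1 x2 s1
  obtain ⟨k3, k4⟩ := key h2 y1 y2 s2
  have e := hT.eq hB k1 k3 k2 k4
  have c1 := (h.abW c).ab.comm x1 (h.W_sub h1 hB k3)
  exact h.rr_not hB hr (h.cen_W ha.symm (h.Q_le' ha.symm hs) hn (hN _ _ _ hB ha hr) (by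
    calc s * (x * y) * s⁻¹ = s * x * s⁻¹ * x * (x⁻¹ * (s * y * s⁻¹ * y)) * y⁻¹ := by group
      _ = s * x * s⁻¹ * x * (s * y * s⁻¹ * y) * x * y := by rw [h.inv_eq x1, h.inv_eq y1, c1]; group
      _ = _ := by rw [e, one_mul]))

end S3B

namespace CDB
section
variable (h : CDB G Γ n) (hn : 3 ≤ n)
include h hn

theorem VV_ab (b : V) : Ab (VV G Γ b) :=
  ab_iff.2 (VV_le.2 fun a ha => h.cen_VV (by rw [dist_one h.toS3G ha.symm]; omega))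

theorem rr_sq (hr : Rr G Γ b a r) : r * r = 1 := by
  obtain ⟨a₁, a₂, w₁, w₂, h1, h2, -, -, -, h3, -, h4, -, rfl⟩ := hr
  rw [mul_assoc, ← mul_assoc w₂, ← (h.VV_ab hn b).comm (le_VV h1 h3) (le_VV h2 h4), mul_assoc, h.sq h4, mul_one, h.sq h3]

theorem rr_uniq (hT : Two G V) (hB : Bt G b) (ha : Γ.Adj b a) (hr : Rr G Γ b a r) (hr' : Rr G Γ b a r') :
    r * r' ∈ W(b) := by
  obtain ⟨a₁, a₂, w₁, w₂, h1, h2, h3, h4, h5, h6, h7, h8, h9, rfl⟩ := hr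
  obtain ⟨c₁, c₂, v₁, v₂, k1, k2, k3, k4, k5, k6, k7, k8, k9, rfl⟩ := hr'
  have key : ∀ {v₁ v₂}, v₁ ∈ W(a₁) → v₁ ∉ W(b) → v₂ ∈ W(a₂) → v₂ ∉ W(b) → w₁ * w₂ * (v₁ * v₂) ∈ W(b) :=
    fun {v₁ v₂} k6 k7 k8 k9 => by
      rw [mul_assoc, ← mul_assoc w₂, (h.VV_ab hn b).comm (le_VV h2 h8) (le_VV h1 k6), mul_assoc, ← mul_assoc]
      exact mul_mem (h.two_mul hT hB h1 h6 k6 h7 k7) (h.two_mul hT hB h2 h8 k8 h9 k9)
  rcases three h.toS3G ha h1 h2 h3 h4 h5 k1 with e | rfl | rfl <;>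
    rcases three h.toS3G ha h1 h2 h3 h4 h5 k2 with e' | rfl | rfl
  any_goals contradiction
  · exact key k6 k7 k8 k9
  · rw [(h.VV_ab hn b).comm (le_VV k1 k6) (le_VV k2 k8)]
    exact key k8 k9 k6 k7

theorem rr_comm (hT : Two G V) (hB : Bt G b) (ha : Γ.Adj b a) (hr : Rr G Γ b a r) (ht : t ∈ P(a) ⊓ P(b)) :
    t * r * t⁻¹ * r ∈ W(b) := by
  have := hr.smul h.toS3G t
  rw [ht.1, ht.2] at this
  exact h.rr_uniq hn hT hB ha this hr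

theorem nn_of (hT : Two G V) (hB : Bt G b) (ha : Γ.Adj b a) (hr : Rr G Γ b a r) (hm : r ∈ W(a)) : NN G Γ :=
  fun b' a' r' hB' ha' hr' => by
    obtain ⟨g, rfl⟩ := h.conj_type (iff_of_true hB hB')
    obtain ⟨k, hk, rfl⟩ := h.nbr (h.smul g ha) ha'
    have h1 := (hr.smul h.toS3G g).smul h.toS3G k
    rw [hk] at h1
    exact (mul_mem_cancel_left (cjW (cjW hm g) k)).1 (h.W_sub ha' hB' (h.rr_uniq hn hT hB' ha' h1 hr'))

theorem U0_le (a : V) : U0 G Γ a ≤ Q(a) := sup_le (h.W_le a) ((closure_le _).2 fun _ ⟨_, hb, hr⟩ =>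
  h.VV_adj hn hb.symm hr.mem)

end

theorem rr (h : CDB G Γ (k + 3)) (hf : Cr2 G Γ (k + 3) f) (hy : y ∈ W(f 0)) (hyn : y ∉ Q(f (k + 3)))
    (hx : x ∈ W(f (k + 4))) (hxn : x ∉ Q(f 1)) :
    Rr G Γ (f 1) (f 2) (y * (x * y * x⁻¹)) ∧ Rr G Γ (f (k + 3)) (f (k + 2)) (y * (x * y * x⁻¹)) := by
  have A := hf.arc
  have x1 := h.eP A _ 1 hx
  have y1 := h.eP A 0 (k + 3) hy
  obtain ⟨m1, m2, m3⟩ := moves h.toS3G (A.ad 1) (A.s 0) (A.nq 0).symm x1 (h.eP A _ 2 hx) hxn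
  obtain ⟨l1, l2, l3⟩ := moves h.toS3G (A.s (k + 2)) (A.ad (k + 3)) (A.nq (k + 2)) y1 (h.eP A 0 _ hy) hyn
  have y2 : y ∉ W(f 1) := fun e => hyn (h.eQ A 1 _ e)
  have x2 : x ∉ W(f (k + 3)) := fun e => hxn (h.eQ A _ 1 e)
  exact ⟨⟨_, _, _, _, A.s 0, m1, (A.nq 0).symm, m3, m2, hy, y2, cjW hy x, fun e => y2 (cjW' (by rwa [x1])), rfl⟩,
    ⟨_, _, _, _, l1, A.ad _, l3, A.nq _, l2.symm, cjW hx y, fun e => x2 (cjW' (by rwa [y1])), hx, x2, by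
      rw [h.inv_eq hx, h.inv_eq hy]; group⟩⟩

theorem nn_three (h : CDB G Γ 3) (hf : Cr2 G Γ 3 f) (hT : Two G V) : NN G Γ := by
  have A := hf.arc
  obtain ⟨x, hx, hxn⟩ := SetLike.not_le_iff_exists.1 hf.nle'
  obtain ⟨y, hy, hyn⟩ := SetLike.not_le_iff_exists.1 hf.nle
  obtain ⟨r1, r2⟩ := rr (k := 0) h hf hy hyn hx hxn
  have b1 := A.be h.toS3B hf.at0 1
  have b3 := A.be h.toS3B hf.at0 3
  have sq := h.rr_sq le_rfl r1
  refine h.nn_of le_rfl hT b1 (A.ad 1) r1 (h.mem_W_of (A.al h.toS3B hf.at0 2) (A.ad 2) (h.VV_adj le_rfl (A.ad 1) r1.mem)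
    sq (mem_cen.2 fun g hg => ?_) fun t ht => h.rr_comm le_rfl hT b3 (A.s 2) r2 ht)
  have := odd_W (k := 0) h hf rfl (h.rr_comm le_rfl hT b1 (A.ad 1) r1 (h.Q_le (A.s 1) hg))
    (h.rr_comm le_rfl hT b3 (A.s 2) r2 (h.Q_le (A.ad 2) hg))
  rw [← mul_inv_eq_iff_eq_mul, eq_inv_of_mul_eq_one_left this, inv_eq_of_mul_eq_one_right sq]

theorem nn_big (h : CDB G Γ (k + 5)) (hf : Cr2 G Γ (k + 5) f) (he : k % 2 = 0) (hT : Two G V) : NN G Γ := by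
  have A := hf.arc
  have hn : 3 ≤ k + 5 := by omega
  obtain ⟨x, hx, hxn⟩ := SetLike.not_le_iff_exists.1 hf.nle'
  obtain ⟨y, hy, hyn⟩ := SetLike.not_le_iff_exists.1 hf.nle
  obtain ⟨r1, r2⟩ := rr (k := k + 2) h hf hy hyn hx hxn
  obtain ⟨u, u1, u2, u3⟩ := h.exists_u hf he
  have yK : y ∈ Q(f (k + 4)) ⊓ Q(f (k + 3)) := ⟨h.eQ A 0 _ hy, h.eQ A 0 _ hy⟩
  have b0 := A.be h.toS3B hf.at0 (k + 3)
  have b1 := A.be h.toS3B hf.at0 (k + 5)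
  have a1 := A.al h.toS3B hf.at0 (k + 4)
  have d0 := A.s (k + 3)
  have d1 := A.ad (k + 4)
  have hne := A.nq (k + 3)
  have ur := mem_cen.1 u3 _ r1.mem
  generalize y * (x * y * x⁻¹) = r at r2 ur
  change Rr G Γ (f (k + 5)) (f (k + 4)) r at r2
  change Γ.Adj (f (k + 4)) (f (k + 3)) at d0
  change Γ.Adj (f (k + 4)) (f (k + 5)) at d1
  change f (k + 5) ≠ f (k + 3) at hne
  change y ∉ Q(f (k + 5)) at hyn
  generalize f (k + 3) = b₀, f (k + 4) = a, f (k + 5) = b at *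
  have sq := h.rr_sq hn r2
  have ri := inv_eq_of_mul_eq_one_right sq
  have cm : ∀ t ∈ P(a) ⊓ P(b), t * r * t⁻¹ * r ∈ W(b) := fun t ht => h.rr_comm hn hT b1 d1.symm r2 ht
  have cen : ∀ {t}, t ∈ C[r] ↔ t * r * t⁻¹ * r = 1 := fun {t} => by
    rw [mem_cen1, mul_eq_one_iff_eq_inv, ri, mul_inv_eq_iff_eq_mul]
  by_contra hN
  have h1 : ¬ Q(a) ⊓ Q(b₀) ≤ C[r] := fun hK => by
    have h2 : ¬ Q(a) ≤ C[r] := fun e => hN (h.nn_of hn hT b1 d1.symm r2 (h.mem_W_of a1 d1 (h.VV_adj hn d1.symm r2.mem) sq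
      (le_cen1.1 e) cm))
    obtain ⟨g, hg, hgn⟩ := SetLike.not_le_iff_exists.1 h2
    have h3 : ∃ t ∈ P(a) ⊓ P(b), t ∉ Q(a) ∧ t ∈ C[r] := by
      obtain ⟨t, ht, htn⟩ := exT h.toS3G d1
      by_cases e : t ∈ C[r]
      · exact ⟨t, ht, htn, e⟩
      have gT := h.Q_le d1 hg
      refine ⟨t * g, mul_mem ht gT, fun e => htn ((mul_mem_cancel_right hg).1 e), cen.2 ?_⟩
      have e1 := hT.eq b1 (cm g gT) (cm t ht) (mt cen.2 hgn) (mt cen.2 e)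
      have e2 := mem_cen.1 (b1 ht.2) _ (cm g gT)
      calc t * g * r * (t * g)⁻¹ * r = t * (g * r * g⁻¹ * r) * r⁻¹ * t⁻¹ * r := by group
        _ = _ := by rw [← e2, ri, ← e1]; group
    obtain ⟨t, ht, htn, htc⟩ := h3
    have h4 : ∀ k ∈ Q(a), k ∈ C[r] → k ∈ Q(b₀) := fun k hk hc => by_contra fun e =>
      hgn ((mul_mem_cancel_left hc).1 (hK ⟨mul_mem hk hg, mul_Q h.toS3G d0.symm (h.Q_le' d0.symm hk) (h.Q_le' d0.symm hg) e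
        fun e => hgn (hK ⟨hg, e⟩)⟩))
    have h5 : P(a) ≤ N(Q(a) ⊓ Q(b₀)) := (gen_elt h.toS3G d0 ht.1 (moves h.toS3G d1 d0 hne.symm ht.1 ht.2 htn).2.1).ge.trans
      (sup_le (normsI (inf_le_left.trans (nQ _)) (inf_le_right.trans (nQ _))) (zpowers_le.2 (mem_nrm.2 fun k hk =>
        ⟨conj_mem (nQ a ht.1) hk.1, h4 _ (conj_mem (nQ a ht.1) hk.1) (conj_mem (le_nrm _ htc) (hK hk))⟩)))
    obtain ⟨s, hs, rfl⟩ := h.nbr d0 d1
    have := cjQ (conj_mem' (h5 hs) yK).2 s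
    exact hyn (by simpa [mul_assoc] using this)
  obtain ⟨g, hg, hgn⟩ := SetLike.not_le_iff_exists.1 h1
  have d2 := h.adj_smul u1 d0.symm
  have nU : Q(b₀) ≤ N(U0 G Γ (u • a)) := (QPn h.toS3G d2).trans (nU0 h.toS3G _)
  have rU : r ∈ U0 G Γ (u • a) := by
    rw [U0_smul h.toS3G, mem_cj, mul_assoc, ur, inv_mul_cancel_left]
    exact r2.mem_U0 d1
  have w0 : W(b₀) ≤ U0 G Γ (u • a) := (h.W_sub d2 b0).trans le_sup_left
  have w1 : W(b) ≤ U0 G Γ (u • a) := hT.le b1 (cm g (h.Q_le d1 hg.1)) (mt cen.2 hgn) (mul_mem (conj_mem (nU hg.2) rU) rU)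
  have w2 : W(a) ≤ U0 G Γ (u • a) := (h.W_sup a1 d0 d1 hne.symm).le.trans (sup_le w0 w1)
  have w3 : ∀ r', Rr G Γ b a r' → r' ∈ U0 G Γ (u • a) := fun r' hr =>
    (mul_mem_cancel_left rU).1 (w1 (h.rr_uniq hn hT b1 d1.symm r2 hr))
  have w4 : U0 G Γ a ≤ U0 G Γ (u • a) := sup_le w2 ((closure_le _).2 fun r' ⟨c, hc, hr⟩ => by
    by_cases e0 : c = b₀
    · subst e0
      refine VV_le.2 (fun d hd w hw => ?_) hr.mem
      by_cases e1 : d = a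
      · exact w2 (e1 ▸ hw)
      by_cases e2 : d = u • a
      · exact mem_sup_left (e2 ▸ hw)
      by_cases e3 : w ∈ W(c)
      · exact w0 e3
      obtain ⟨v, v1, v2⟩ := h.exW b0 d0.symm
      exact (mul_mem_cancel_left (w2 v1)).1 (Rr.mem_U0 ⟨_, _, _, _, d0.symm, hd, u2.symm, e2, e1, v1, v2, hw, e3, rfl⟩ d2.symm)
    by_cases e1 : c = b
    · exact w3 r' (e1 ▸ hr)
    obtain ⟨s, hs, hsn⟩ := h.exQ d0
    have s1 := h.Q_le' d0 hs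
    have := hr.smul h.toS3G s
    rw [swap h.toS3G d0 hc d1 e0 hne (Ne.symm e1) s1.1 s1.2 hsn, s1.1] at this
    simpa [mul_assoc] using conj_mem' (nU hs) (w3 _ this))
  have w5 := eq_of_card_eq w4 (by rw [U0_smul h.toS3G, card_cj])
  exact h.W_ne a (eq_bot_of_le (show W(a) ≤ U0 G Γ a from le_sup_left) (h.core d0 ((h.U0_le hn a).trans (h.Q_le d0)) (nU0 h.toS3G a)
    ((gen2 h.toS3G d0.symm d2 u2.symm).ge.trans (sup_le (inf_le_right.trans (nU0 h.toS3G a))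
      (inf_le_right.trans (w5 ▸ nU0 h.toS3G _))))))

theorem r_three (h : CDB G Γ (k + 5)) (hf : Cr2 G Γ (k + 5) f) (he : k % 2 = 0) (hN : NN G Γ) (hy : y ∈ W(f 0))
    (hyn : y ∉ Q(f (k + 5))) (hx : x ∈ W(f (k + 6))) (hxn : x ∉ Q(f 1)) :
    y * (x * y * x⁻¹) ≠ 1 ∧ y * (x * y * x⁻¹) ∈ W(f 3) ∧ y * (x * y * x⁻¹) ∈ W(f (k + 3)) := by
  have A := hf.arc
  obtain ⟨r1, r2⟩ := rr (k := k + 2) h hf hy hyn hx hxn
  have b1 := A.be h.toS3B hf.at0 1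
  refine ⟨fun e => h.rr_not b1 r1 (e ▸ one_mem _), ?_, h.odd_inf hf he r1.mem
    (hN _ _ _ (A.be h.toS3B hf.at0 _) (A.s _) r2)⟩
  have := h.odd_inf (hf.rev h.toS3B (by omega)) he r2.mem (by
    rw [show k + 5 + 1 - (k + 4) = 2 by omega]
    exact hN _ _ _ b1 (A.ad 1) r1)
  rwa [show k + 5 + 1 - (k + 3) = 3 by omega] at this

theorem id3 (h : CDB G Γ (k + 5)) (hf : Cr2 G Γ (k + 5) f) (he : k % 2 = 0) (hT : Two G V) (hN : NN G Γ) :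
    W(f 3) ≤ W(f (k + 3)) := by
  obtain ⟨x, hx, hxn⟩ := SetLike.not_le_iff_exists.1 hf.nle'
  obtain ⟨y, hy, hyn⟩ := SetLike.not_le_iff_exists.1 hf.nle
  obtain ⟨h1, h2, h3⟩ := h.r_three hf he hN hy hyn hx hxn
  exact hT.le (hf.arc.be h.toS3B hf.at0 3) h2 h1 h3

theorem prop' (h : CDB G Γ (k + 3)) (hf : Cr2 G Γ (k + 3) f) (he : k % 2 = 0) :
    ∃ F, Cr2 G Γ (k + 3) F ∧ ∀ i ≤ k + 1, F (i + 2) = f i := by
  obtain ⟨c₁, c₂, F, hn⟩ := h.prop hf he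
  obtain ⟨F', h1, h2⟩ := h.exists_cr2 ⟨F.mono (by omega), h.at_of (F.s 0) (h.bt_of (F.s 1) hf.at0), hn⟩ he
  exact ⟨F', h1, fun i hi => h2 (i + 2) (by omega)⟩

theorem no_seven (h : CDB G Γ (k + 7)) (hf : Cr2 G Γ (k + 7) f) (he : k % 2 = 0) (hT : Two G V) (hN : NN G Γ) : False := by
  have A := hf.arc
  obtain ⟨F₁, c1, e1⟩ := prop' (k := k + 4) h hf (by omega)
  obtain ⟨F₂, c2, e2⟩ := prop' (k := k + 4) h c1 (by omega)
  have h1 := id3 (k := k + 2) h c1 (by omega) hT hN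
  have h2 := id3 (k := k + 2) h c2 (by omega) hT hN
  rw [e1 1 (by omega), show k + 2 + 3 = k + 3 + 2 from rfl, e1 (k + 3) (by omega)] at h1
  rw [e2 1 (by omega), show k + 2 + 3 = k + 3 + 2 from rfl, e2 (k + 3) (by omega), e1 (k + 1) (by omega)] at h2
  have h3 : Γ.Adj (F₁ (0 + 2)) (F₁ 1) := c1.arc.s 1
  have h4 : F₁ (1 + 2) ≠ F₁ 1 := c1.arc.nq 1
  rw [e1 0 (by omega)] at h3
  rw [e1 1 (by omega)] at h4
  exact hf.nle ((h.W_sup hf.at0 (A.ad 0) h3 h4).le.trans ((sup_le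
    (h1.trans (h.W_sub (A.s (k + 2)) (A.be h.toS3B hf.at0 _)))
    (h2.trans (h.W_sub (A.ad (k + 1)) (A.be h.toS3B hf.at0 _)))).trans (h.aQ A _ _)))

theorem ex_four (h : CDB G Γ n) (hn : 2 ≤ n) (hT : Two G V) (hN : NN G Γ) (ha : ¬ Bt G a) : Ex G Γ 4 False := by
  by_contra hE
  have k1 : ∀ {b a : V}, Bt G b → Γ.Adj b a → P(b) ⊓ C(VV G Γ b) ≤ Q(a) := fun {b a} hB ha g hg => by
    have h1 := cen_anti (le_VV ha) hg.2
    refine h.cen_mem (h.at_of ha hB) (by_contra fun e => h.W_not_le (h.at_of ha hB) ha.symm fun w hw =>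
      h.fix_W hB ha hg.1 e hw ?_) h1
    rw [← mem_cen.1 h1 w hw, mul_inv_cancel_right]
  have k2 : ∀ {b a : V}, Bt G b → Γ.Adj b a → ¬ Q(b) ⊓ Q(a) ≤ C(VV G Γ b) := fun {b a} hB ha e => by
    have h1 : ∀ {c}, Γ.Adj b c → Q(b) ⊓ Q(c) ≤ Q(a) := fun hc => by
      obtain ⟨s, hs, rfl⟩ := h.nbr ha hc
      refine le_trans (le_inf (inf_le_left.trans (QP b)) ?_) (k1 hB ha)
      rw [Q_smul, ← cj_of_mem_nrm (nQ b hs), ← cj_inf]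
      exact cj_le_of_nrm (norms_cent (nVV h.toS3G b) hs) e
    obtain ⟨g, hg, hgn⟩ := h.exQ ha.symm
    obtain ⟨c, hc, c1⟩ := h.other ha
    obtain ⟨d, hd, d1, d2⟩ := third h.toS3G ha hc c1
    exact hgn (h.par1 hT hN hB ha hc hd c1 d1 d2 hg (fun e => hgn (h1 hc ⟨hg, e⟩)) fun e => hgn (h1 hd ⟨hg, e⟩))
  have key : ∀ {b c : V}, Γ.Adj a b → Γ.Adj a c → b ≠ c → P(b) ≤ N(Q(b) ⊓ Q(c)) := fun {b c} hb hc hne => by
    have hB := h.bt_of hb ha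
    have h1 : Q(b) ⊓ Q(c) ≤ C(VV G Γ b) := centsC (VV_le.2 fun d hd => centsC (le_trans (fun g hg => ?_) (h.Q_cen d)))
    · have h2 : P(b) ⊓ C(VV G Γ b) ≤ Q(b) ⊓ Q(c) := fun g hg => by
        obtain ⟨d, hd, d1⟩ := h.other hb.symm
        have g1 := k1 hB hb.symm hg
        have g2 := mem_Q h.toS3G hb.symm hd d1.symm hg.1 (QP _ g1) (QP _ (k1 hB hd hg))
        refine ⟨g2, by_contra fun e => k2 hB hb.symm fun y hy => ?_⟩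
        by_cases e2 : y ∈ Q(c)
        · exact h1 ⟨hy.1, e2⟩
        · exact (mul_mem_cancel_left (mem_inf.1 hg).2).1 (h1 ⟨mul_mem g2 hy.1,
            mul_Q h.toS3G hc.symm (h.Q_le' hc.symm g1) (h.Q_le' hc.symm hy.2) e e2⟩)
      rw [← le_antisymm h2 (le_inf (inf_le_left.trans (QP b)) h1)]
      exact (subcent_nml (nVV h.toS3G b)).nrm
    by_cases e : d = a
    · exact e ▸ mem_Q h.toS3G hb hc hne (QPn h.toS3G hb.symm hg.1) (QP _ hg.1) (QP _ hg.2)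
    obtain ⟨c', hc', c1⟩ := h.other hc.symm
    have A0 : Arc Γ (fun _ => c') 0 := ⟨by simp, by simp⟩
    have A := (((A0.cons hc'.symm hc'.ne).cons hc.symm c1.symm).cons hb hne).cons hd e
    by_contra hgn
    refine hE ⟨_, g, A, iff_false_intro (h.at_of hd hB), fun i hi => ?_, hgn⟩
    interval_cases i
    exacts [QPn h.toS3G hd hg.1, QP _ hg.1, QPn h.toS3G hb.symm hg.1, QP _ hg.2, QPn h.toS3G hc' hg.2]
  obtain ⟨b, hb⟩ := h.ex a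
  obtain ⟨c, hc, hne⟩ := h.other hb
  have n1 := key hb hc hne.symm
  have n2 := key hc hb hne
  rw [inf_comm Q(c)] at n2
  exact h.W_ne a (eq_bot_of_le (le_inf (h.adjQ hn hb) (h.adjQ hn hc)) (h.core hb (inf_le_left.trans (h.Q_le' hb))
    ((gen2 h.toS3G hb hc hne.symm).ge.trans (sup_le (inf_le_right.trans n1) (inf_le_right.trans n2))) n1))

theorem five_aux (h : CDB G Γ 5) (hT : Two G V) (hN : NN G Γ)
    (hall : ∀ f : ℕ → V, Arc Γ f 5 → ¬ Bt G (f 0) → ¬ W(f 0) ≤ Q(f 5)) (A : Arc Γ f 8) (a0 : ¬ Bt G (f 0))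
    (hy : y ∈ W(f 0)) (hyn : y ∉ W(f 1)) (hx : x ∈ W(f 8)) (hxn : x ∉ W(f 7)) :
    (y * x) ^ 4 ≠ 1 ∧ (y * x) ^ 4 ∈ W(f 3) := by
  have c0 := hall _ (A.rev.mono (by omega : 5 ≤ 8)) (A.al h.toS3B a0 8)
  have x1 : x ∉ Q(f 3) := h.two_not hT (A.be h.toS3B a0 7) (A.ad 7) (h.aQ A 7 3) c0 hx hxn
  have x2 := h.eP A 8 3 hx
  obtain ⟨m1, m2, -⟩ := moves h.toS3G (A.ad 3) (A.s 2) (A.nq 2).symm x2 (h.eP A 8 4 hx) x1
  have B0 := (A.mono (by omega : 3 ≤ 8)).rev.smul h.toS3G x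
  have B := ((B0.cons (c := f 2) (by rw [Nat.sub_zero, x2]; exact A.s 2) m2.symm).cons (c := f 1) (A.s 1)
    (by rw [cons_succ, Nat.sub_zero, x2]; exact (A.nq 1).symm)).cons (A.s 0) (A.nq 0).symm
  have c1 := hall _ (B.mono (by omega)) a0
  have c2 := hall _ (B.rev.mono (by omega)) (B.al h.toS3B a0 6)
  have := r_three (k := 0) h ⟨B, a0, c1, c2⟩ rfl hN hy
    (h.two_not hT (A.be h.toS3B a0 1) (A.s 0) (h.aQ B 1 5) c1 hy hyn) (cjW hy x)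
    (h.two_not hT (B.be h.toS3B a0 5) (B.ad 5) (h.aQ B 5 1) c2 (cjW hy x) (mt cjW' hyn))
  have e : y * (x * y * x⁻¹ * y * (x * y * x⁻¹)⁻¹) = (y * x) ^ 4 := by
    rw [conj_inv, h.inv_eq hx, h.inv_eq hy]
    simp only [pow_succ, pow_zero, one_mul, mul_assoc]
  rw [e] at this
  exact ⟨this.1, x2 ▸ this.2.1⟩

theorem no_five (h : CDB G Γ 5) (hf : Crit G Γ 5 f) (hT : Two G V) (hN : NN G Γ) : False := by
  have tr := (h.arc_tr ((h.ex_odd hf rfl).mono (by omega : 4 ≤ 5)) (h.ex_four (by omega) hT hN hf.at0)).2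
  have hall : ∀ f : ℕ → V, Arc Γ f 5 → ¬ Bt G (f 0) → ¬ W(f 0) ≤ Q(f 5) := fun f' h1 h2 => (hf.all tr h1 h2).nle
  obtain ⟨c₁, c₂, A1⟩ := (hf.arc.mono (by omega : 4 ≤ 5)).ext2 h.toS3G (by omega)
  obtain ⟨c₃, c₄, A⟩ := A1.ext2 h.toS3G (by omega)
  have a0 : ¬ Bt G (cons c₄ (cons c₃ (cons c₂ (cons c₁ f))) 0) :=
    h.at_of (A.s 0) (h.bt_of (A.s 1) (h.at_of (A.s 2) (h.bt_of (A.s 3) hf.at0)))
  generalize cons c₄ (cons c₃ (cons c₂ (cons c₁ f))) = F at A a0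
  obtain ⟨y, hy, hyn⟩ := h.exW (A.be h.toS3B a0 1) (A.s 0)
  obtain ⟨x, hx, hxn⟩ := h.exW (A.be h.toS3B a0 7) (A.ad 7)
  obtain ⟨h1, h2⟩ := h.five_aux hT hN hall A a0 hy hyn hx hxn
  obtain ⟨-, h3⟩ := h.five_aux hT hN hall A.rev (A.al h.toS3B a0 8) hx hxn hy hyn
  refine h1 (h.eq_one (A.al h.toS3B a0 4) (A.s 3) (A.ad 4) (A.nq 3).symm h2 ?_)
  rw [← h.inv_eq hx, ← h.inv_eq hy, ← mul_inv_rev, inv_pow]
  exact inv_mem h3

end CDB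

end Cfsg.Agent.H5d
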