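import Cfsg.Agent.H5.Am4

/-! Goldschmidt's bound for amalgams of shape `(S₃, S₃)`. -/

set_option autoImplicit false
set_option linter.unusedSectionVars false

namespace Cfsg.Agent.H5d

open Cfsg Subgroup Cfsg.Agent.FT Cfsg.Agent.P22
open scoped commutatorElement

universe u

variable {G : Type u} [Group G] [Finite G] {A B C D H K L P R S T U X Y : Subgroup G} {g t x y v w r r' s : G}
variable {V : Type*} [MulAction G V] {Γ : SimpleGraph V} {a b c d e a' b' c' d' : V} {n m k i j : ℕ}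
  {f f' : ℕ → V}

local notation:max "P(" a ")" => MulAction.stabilizer G a
local notation:max "Q(" a ")" => O[{2}](MulAction.stabilizer G a)
local notation:max "W(" a ")" => Vz 2 (MulAction.stabilizer G a)

theorem card_sup_zp (hx : x ∈ N(A)) (h2 : x * x ∈ A) : #(A ⊔ ⟪x⟫) ≤ 2 * #A := by
  rw [card_sup_eq_mul_relIndex (zpowers_le.2 hx), mul_comm]
  refine Nat.mul_le_mul_right _ (Nat.le_of_dvd two_pos (relIndex_dvd_two_iff.2 ⟨x, mem_zpowers x, ?_⟩))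
  have e : ∀ j : ℤ, x ^ (2 * j) ∈ A := fun j => by
    rw [zpow_mul, zpow_two]
    exact zpow_mem h2 j
  rintro _ ⟨j, rfl⟩
  obtain ⟨i, rfl | rfl⟩ := Int.even_or_odd' j
  · exact .inr (e i)
  · exact .inl (by simpa only [mul_add, mul_one, zpow_add, zpow_one, zpow_two, mul_assoc] using e (i + 1))

theorem card_T (h : S3G G Γ) (hb : Γ.Adj a b) : #(P(a) ⊓ P(b)) = 2 * #Q(a) := by
  rw [← card_mul_relIndex (h.Q_le hb), h.idx hb, mul_comm]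

theorem card_T_eq (h : S3G G Γ) (hb : Γ.Adj a b) (hd : Γ.Adj c d) : #(P(c) ⊓ P(d)) = #(P(a) ⊓ P(b)) := by
  obtain ⟨g, rfl | rfl⟩ := h.edge c hb
  · rw [card_T h hd, card_T h hb, Q_smul, card_cj]
  · rw [card_T h hd, inf_comm, card_T h hb.symm, Q_smul, card_cj]

namespace S3B
variable (h : S3B G Γ)
include h

theorem card_four (hT : Two G V) (ha : ¬ Bt G a) : #W(a) = 4 := by
  obtain ⟨b, hb⟩ := h.ex a
  rw [h.card_W ha hb, hT b (h.bt_of hb ha)]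

theorem card_step (hT : Two G V) (hB : Bt G b) (hc : Γ.Adj b c) (h1 : X ≤ Q(b)) (h2 : W(b) ≤ X) :
    #(W(c) ⊔ X) ≤ 2 * #X := by
  have a1 := card_sup_mul_card_inf (h1.trans ((QPn h.toS3G hc).trans (nW c)))
  have a2 := card_le (le_inf (h.W_sub hc hB) h2)
  rw [h.card_four hT (h.at_of hc hB)] at a1
  rw [hT b hB] at a2
  nlinarith

theorem mul_E (hT : Two G V) (ha : ¬ Bt G a) (hb : Γ.Adj a b) (hE : #(VV G Γ b ⊓ Q(a)) ≤ 8) (hx : x ∈ VV G Γ b ⊓ Q(a))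
    (hy : y ∈ VV G Γ b ⊓ Q(a)) (h1 : x ∉ W(a)) (h2 : y ∉ W(a)) : x * y ∈ W(a) :=
  mul_mem_le_two (le_inf (le_VV hb.symm) (h.W_le a)) (by rw [h.card_four hT ha]; exact hE) hx hy h1 h2

theorem E_smul (hg : g ∈ P(a)) (b : V) : VV G Γ (g • b) ⊓ Q(a) = cj g (VV G Γ b ⊓ Q(a)) := by
  rw [cj_inf, VV_smul h.toS3G, cj_of_mem_nrm (nQ a hg)]

theorem comm_UU (hT : Two G V) (ha : ¬ Bt G a) (hb : Γ.Adj a b) (hE : #(VV G Γ b ⊓ Q(a)) ≤ 8) :
    ⁅Q(a), UU G Γ a⁆ ≤ W(a) := comm_iSup_le (h.W_le a) fun c => by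
  obtain ⟨g, hg, e⟩ := h.nbr hb c.2
  rw [← e, h.E_smul hg, ← cj_of_mem_nrm (nQ a hg), ← cj_comm, cj_of_mem_nrm (nQ a hg)]
  refine cj_le_of_nrm (nW a hg) (comm_le_iff.2 fun k hk x hx => ?_)
  have n1 := nW a (QP a hk)
  by_cases e : x ∈ W(a)
  · exact mul_mem (conj_mem n1 e) (inv_mem e)
  · exact h.mul_E hT ha hb hE (conj_mem (normsI ((QPn h.toS3G hb).trans (nVV h.toS3G b)) (le_nrm _) hk) hx) (inv_mem hx)
      (fun e2 => e (by simpa [mul_assoc] using conj_mem' n1 e2)) (mt inv_mem_iff.1 e)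

theorem bound (hT : Two G V) (ha : ¬ Bt G a) (hb : Γ.Adj a b) (hE : #(VV G Γ b ⊓ Q(a)) ≤ 8) (ht : t ∈ P(a) ⊓ P(b))
    (hn : t ∉ Q(a)) (hc : ∀ x ∈ Q(a), ⁅x, t⁆ ∈ UU G Γ a) : #(P(a) ⊓ P(b)) ≤ 128 := by
  obtain ⟨d, hd, o, hD⟩ := three_of h.toS3G hb ht hn (nUU h.toS3G a) hc
  have cU := h.comm_UU hT ha hb hE
  have pQ := pcore_pi {2} P(a)
  have dT := not_mem_three (h.syl hb).pi o
  have d3 : d * (d * d) = 1 := by rw [← pow_three, ← o, pow_orderOf_eq_one]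
  have dP : ⟪d⟫ ≤ P(a) := zpowers_le.2 hd
  have UQ : UU G Γ a ≤ Q(a) := UU_le fun _ _ => inf_le_right
  have WU : W(a) ≤ UU G Γ a := (le_inf (le_VV hb.symm) (h.W_le a)).trans (le_UU hb)
  obtain ⟨e, he, e2, hEe⟩ : ∃ e ∈ VV G Γ b ⊓ Q(a), e * e ∈ W(a) ∧ VV G Γ b ⊓ Q(a) ≤ W(a) ⊔ ⟪e⟫ := by
    by_cases e : VV G Γ b ⊓ Q(a) ≤ W(a)
    · exact ⟨1, one_mem _, by rw [mul_one]; exact one_mem _, e.trans le_sup_left⟩
    obtain ⟨e, he, hn⟩ := SetLike.not_le_iff_exists.1 e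
    refine ⟨e, he, h.mul_E hT ha hb hE he he hn hn, fun x hx => ?_⟩
    by_cases e3 : x ∈ W(a)
    exacts [mem_sup_left e3, (mul_mem_cancel_left (mem_sup_right (mem_zpowers e))).1
      (mem_sup_left (h.mul_E hT ha hb hE he hx hn e3))]
  have eU := le_UU hb he
  have dU := nUU h.toS3G a hd
  have uU : ⁅d, e⁆ ∈ UU G Γ a := mul_mem (conj_mem dU eU) (inv_mem eU)
  have u2 : ⁅d, e⁆ * ⁅d, e⁆ ∈ W(a) := by
    have h1 := conj_mem dU eU
    rw [show ⁅d, e⁆ * ⁅d, e⁆ = d * e * d⁻¹ * ⁅e⁻¹, d * e * d⁻¹⁆ * (d * e * d⁻¹)⁻¹ * (d * (e * e) * d⁻¹) * (e * e)⁻¹ by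
      simp only [commutatorElement_def]; group]
    exact mul_mem (mul_mem (conj_mem (nW a (QP a (UQ h1))) (cU (comm_mem (inv_mem he.2) h1))) (conj_mem (nW a hd) e2))
      (inv_mem e2)
  have u3 : d * (d * ⁅d, e⁆ * d⁻¹) * d⁻¹ = (d * ⁅d, e⁆ * d⁻¹ * ⁅d, e⁆)⁻¹ := by
    calc _ = d * (d * d) * e * d⁻¹ * e⁻¹ * d⁻¹ * d⁻¹ := by simp only [commutatorElement_def]; group
      _ = e * (d * (d * d)) * d⁻¹ * e⁻¹ * d⁻¹ * d⁻¹ := by rw [d3, one_mul, mul_one]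
      _ = _ := by simp only [commutatorElement_def, mul_inv_rev, inv_inv, mul_assoc, inv_mul_cancel_left,
          mul_inv_cancel_left]
  have u4 : ⁅e, d⁆ = ⁅d, e⁆⁻¹ := (commutatorElement_inv d e).symm
  generalize ⁅d, e⁆ = u at uU u2 u3 u4
  have nL : ∀ {L}, W(a) ≤ L → L ≤ UU G Γ a → Q(a) ≤ N(L) := fun h1 h2 =>
    norms_of_comm_le_of_le ((commC _ _).le.trans (cU.trans h1)) h2
  have l1 : W(a) ⊔ ⟪u⟫ ≤ UU G Γ a := sup_le WU (zpowers_le.2 uU)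
  have c1 := card_sup_zp (nL le_rfl WU (UQ uU)) u2
  have c2 := card_sup_zp (nL le_sup_left l1 (UQ (conj_mem dU uU))) (mem_sup_left (by
    rw [show d * u * d⁻¹ * (d * u * d⁻¹) = d * (u * u) * d⁻¹ by group]
    exact conj_mem (nW a hd) u2))
  have m0 : W(a) ≤ W(a) ⊔ ⟪u⟫ ⊔ ⟪d * u * d⁻¹⟫ := le_sup_left.trans le_sup_left
  have m1 : u ∈ W(a) ⊔ ⟪u⟫ ⊔ ⟪d * u * d⁻¹⟫ := mem_sup_left (mem_sup_right (mem_zpowers u))
  have m2 : d * u * d⁻¹ ∈ W(a) ⊔ ⟪u⟫ ⊔ ⟪d * u * d⁻¹⟫ := mem_sup_right (mem_zpowers _)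
  have l2 : W(a) ⊔ ⟪u⟫ ⊔ ⟪d * u * d⁻¹⟫ ≤ UU G Γ a := sup_le l1 (zpowers_le.2 (conj_mem dU uU))
  have dn : d ∈ N(W(a) ⊔ ⟪u⟫ ⊔ ⟪d * u * d⁻¹⟫) := mem_nrm_of_cj_le (by
    rw [cj_sup, cj_sup, cj_zpowers, cj_zpowers, cj_of_mem_nrm (nW a hd), u3]
    exact sup_le (sup_le m0 (zpowers_le.2 m2)) (zpowers_le.2 (inv_mem (mul_mem m2 m1))))
  have cen : ∀ x ∈ Q(a) ⊓ C(⟪d⟫), x ∈ C[u] → x ∈ C(W(a) ⊔ ⟪u⟫ ⊔ ⟪d * u * d⁻¹⟫) := fun x hx hu => by
    rw [cen_sup, cen_sup, cen_zpowers, cen_zpowers, ← cj_cen1, mem_inf, mem_cj, mul_assoc,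
      ← mem_cen.1 hx.2 d (mem_zpowers d), inv_mul_cancel_left]
    exact ⟨⟨h.Q_cen a hx.1, hu⟩, hu⟩
  rw [h.card_four hT ha] at c1
  generalize W(a) ⊔ ⟪u⟫ ⊔ ⟪d * u * d⁻¹⟫ = U at c2 m0 m1 l2 dn cen
  have nU := nL m0 l2
  have s0 : ⁅VV G Γ b ⊓ Q(a), ⟪d⟫⁆ ≤ U := (commSS hEe le_rfl).trans (comm_sup_le
    ((sup_le (h.W_le a) (zpowers_le.2 he.2)).trans nU) ((comm_le_left (dP.trans (nW a))).trans m0)
    (comm_zp_zp_le (nU he.2) dn (u4 ▸ inv_mem m1)))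
  have s1 : ∀ {c}, ⁅VV G Γ c ⊓ Q(a), ⟪d⟫⁆ ≤ U → ⁅VV G Γ (d • c) ⊓ Q(a), ⟪d⟫⁆ ≤ U := fun hc => by
    rw [h.E_smul hd, ← cj_of_mem (mem_zpowers d), ← cj_comm]
    exact cj_le_of_nrm dn hc
  have b1 : d • b ≠ b := fun e => dT ⟨hd, e⟩
  have s2 : ⁅UU G Γ a, ⟪d⟫⁆ ≤ U := H5.commutator_iSup_le (fun _ => inf_le_right.trans nU) fun c => by
    rcases three h.toS3G hb (h.adj_smul hd hb) (h.adj_smul hd (h.adj_smul hd hb)) b1
      (fun e => b1 (by rw [← e, smul_smul, smul_smul, mul_assoc, d3, one_smul, e])) (fun e => b1 (smul_left_cancel d e))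
      c.2 with e | e | e <;> rw [e]
    exacts [s0, s1 s0, s1 (s1 s0)]
  have cop := cop_three pQ o
  have me := coprime_cent_prod_of_le (l2.trans UQ) (zpowers_le.2 dn) (cop.mono_left (l2.trans UQ))
    (.inl (pQ.mono (l2.trans UQ)).nil.sol) ((coprime_comm_le (dP.trans (nQ a)) cop hD).trans s2)
  have hF : Q(a) ⊓ C(⟪d⟫) ⊓ C(U) = ⊥ := by
    by_contra hne
    have h1 := pQ.meet_cen (pQ.mono (inf_le_left.trans inf_le_left)) (me.sup.ge.trans (sup_le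
      (cents_norm (centsC inf_le_right)) (normsI (le_nrm _) (norms_cent (inf_le_left.trans nU))))) hne
    have h2 : Q(a) ⊔ ⟪d⟫ ⊴ P(a) := by
      have l := sup_le (QP a) dP
      refine (nml_iff_normal l).2 (normal_of_index_eq_two ?_)
      have a1 := card_mul_relIndex l
      rw [card_sup_of_inf (dP.trans (nQ a)) cop.inf, card_zpowers', o, (h.s3 a).card, mul_assoc] at a1
      have := Nat.eq_of_mul_eq_mul_left (card_pos _) a1
      change relIndex _ _ = 2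
      omega
    have h3 := (h.syl hb).pi.meet_cen (pQ.mono inf_le_left) (inf_le_left.trans (norms_subcent (nQ a) h2.nrm))
      (ne_bot_of_le (le_inf (inf_le_left.trans (inf_le_left.trans inf_le_left))
        (centsY inf_le_right (inf_le_left.trans (inf_le_left.trans inf_le_right)))) h1)
    obtain ⟨z, hz, oz⟩ := (pQ.mono (inf_le_left.trans inf_le_left)).exists_elt h3
    have zW := h.mem_W hb.symm (h.Q_le' hb.symm hz.1.1) (by rw [← pow_two, ← oz, pow_orderOf_eq_one])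
      (inf_comm P(a) P(b) ▸ hz.2)
    have := h.core_cen hb (zpowers_le.2 (h.Q_le hb hz.1.1)) ((gen_elt h.toS3G hb hd b1).ge.trans (centsC (zpowers_le.2
      (by rw [cen_sup]; exact ⟨hz.2, cen_anti le_sup_right hz.1.2⟩)))) (centsS (zpowers_le.2 zW) (h.bt_of hb ha))
    rw [zpowers_eq_bot.1 this, orderOf_one] at oz
    omega
  have c3 : #(Q(a) ⊓ C(⟪d⟫)) ≤ #W(a) := Nat.card_le_card_of_injective
    (fun x => ⟨⁅(x : G), u⁆, cU (comm_mem x.2.1 uU)⟩) fun x y e => by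
      have e : ⁅(x : G), u⁆ = ⁅(y : G), u⁆ := congrArg Subtype.val e
      have h1 := mul_mem (inv_mem y.2) x.2
      have h2 := cen _ h1 (mem_cen1.2 (by
        calc (y : G)⁻¹ * x * u = (y : G)⁻¹ * ⁅(x : G), u⁆ * u * x := by simp only [commutatorElement_def]; group
          _ = _ := by rw [e]; simp only [commutatorElement_def]; group))
      exact Subtype.ext (inv_mul_eq_one.1 (mem_bot.1 (hF.le ⟨h1, h2⟩))).symm
  have c4 := Nat.le_of_dvd (Nat.mul_pos (card_pos _) (card_pos _)) me.card_dvd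
  rw [h.card_four hT ha] at c3
  rw [card_T h.toS3G hb]
  nlinarith

theorem VV_le_sup (ha : Γ.Adj b a) (hc : Γ.Adj b c) (hd : Γ.Adj b d) (h1 : c ≠ a) (h2 : d ≠ a) (h3 : d ≠ c) :
    VV G Γ b ≤ W(d) ⊔ (W(c) ⊔ W(a)) := VV_le.2 fun e he => by
  rcases three h.toS3G ha hc hd h1 h2 h3 he with rfl | rfl | rfl
  exacts [le_sup_right.trans le_sup_right, le_sup_left.trans le_sup_right, le_sup_left]

end S3B

theorem CDB.bound_two (h : CDB G Γ 2) (hf : Crit G Γ 2 f) : #(P(f 2) ⊓ P(f 1)) ≤ 128 := by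
  have A := hf.arc
  have hT := CDB.even_two (k := 0) h hf rfl
  have hB := A.be h.toS3B hf.at0 1
  obtain ⟨t, ht, hn⟩ := SetLike.not_le_iff_exists.1 hf.nle
  have tV := le_VV (A.s 0) ht
  have tT := h.Q_le' (A.s 1) (h.eQ A 0 1 ht)
  refine h.bound hT (A.al h.toS3B hf.at0 2) (A.s 1) ?_ tT hn fun x hx => le_UU (A.s 1)
    (mem_inf.2 ⟨mul_mem (conj_mem (nVV h.toS3G _ (QPn h.toS3G (A.s 1) hx)) tV) (inv_mem tV), ?_⟩)
  · obtain ⟨d, hd, d1, d2⟩ := third h.toS3G (A.s 0) (A.ad 1) (A.nq 0)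
    have c1 := h.card_step hT hB (A.ad 1) (h.aQ A 0 1) (h.W_sub (A.s 0) hB)
    have c2 := h.card_step hT hB hd (sup_le (h.aQ A 2 1) (h.aQ A 0 1)) ((h.W_sub (A.s 0) hB).trans le_sup_right)
    have c3 := card_le (h.VV_le_sup (A.s 0) (A.ad 1) hd (A.nq 0) d1 d2)
    have c4 := card_inf_mul_relIndex Q(f 2) (VV G Γ (f 1))
    have c5 := one_lt_relIndex (fun e => hn (e tV) : ¬ VV G Γ (f 1) ≤ Q(f 2))
    rw [h.card_four hT hf.at0] at c1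
    rw [inf_comm]
    nlinarith
  · rw [commutatorElement_def, mul_assoc, mul_assoc, ← mul_assoc t]
    exact mul_mem hx (conj_mem (nQ _ tT.1) (inv_mem hx))

theorem CDB.card_VV (h : CDB G Γ n) (hn : 2 ≤ n) (hT : Two G V) (hN : NN G Γ) (hB : Bt G b) (X : Subgroup G) :
    #(VV G Γ b ⊓ X) ≤ 8 := by
  obtain ⟨a, ha⟩ := h.ex b
  obtain ⟨c, hc, c1⟩ := h.other ha
  obtain ⟨d, hd, d1, d2⟩ := third h.toS3G ha hc c1
  have c1' := h.card_step hT hB hc (h.adjQ hn ha.symm) (h.W_sub ha hB)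
  rw [h.card_four hT (h.at_of ha hB)] at c1'
  refine (card_le (inf_le_left.trans ((h.VV_le_sup ha hc hd c1 d1 d2).trans (sup_le (fun y hy => ?_) le_rfl)))).trans c1'
  by_cases e : y ∈ W(b)
  · exact mem_sup_right (h.W_sub ha hB e)
  obtain ⟨x, hx, hxn⟩ := h.exW hB hc
  exact (mul_mem_cancel_left (mem_sup_left hx)).1
    (mem_sup_right (hN b a _ hB ha ⟨c, d, x, y, hc, hd, c1, d1, d2, hx, hxn, hy, e, rfl⟩))

theorem CDB.bound_three (h : CDB G Γ 3) (hf : Cr2 G Γ 3 f) : #(P(f 4) ⊓ P(f 3)) ≤ 128 := by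
  have A := hf.arc
  have hT := CDB.odd_two (k := 0) h hf rfl
  have hN := h.nn_three hf hT
  have hB := A.be h.toS3B hf.at0 3
  have a2 := A.al h.toS3B hf.at0 2
  obtain ⟨u, hu, hn⟩ := SetLike.not_le_iff_exists.1 hf.nle
  obtain ⟨s, hs, hsn⟩ := h.exQ (A.ad 2)
  have uQ := h.eQ A 0 2 hu
  have uT := h.Q_le' (A.s 2) uQ
  have sT := h.Q_le (A.s 2) hs
  have uV := le_VV (A.s 0) hu
  have uU := h.VV_UU le_rfl (A.s 1) uV
  have uU' := conj_mem (nUU h.toS3G _ sT.2) uU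
  have uQ' := conj_mem (nQ _ sT.2) uQ
  have tQ : u * (s * u * s⁻¹) ∈ Q(f 3) := mul_Q h.toS3G (A.s 2) uT (h.Q_le' (A.s 2) uQ') hn fun e =>
    hn (by simpa [mul_assoc] using conj_mem' (le_nrm _ hs) e)
  have cU := h.comm_UU hT a2 (A.ad 2) (h.card_VV (by omega) hT hN hB _)
  have tT := h.Q_le' (A.s 3) tQ
  have h1 : ⁅P(f 2) ⊓ P(f 3), ⟪u * (s * u * s⁻¹)⟫⁆ ≤ W(f 2) := by
    have sT' := h.Q_le' (A.ad 2) hs
    rw [← T_eq h.toS3G (A.ad 2) sT' hsn]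
    refine comm_sup_le ((sup_le (QP _) (zpowers_le.2 sT.2)).trans (nW _))
      ((commSS le_rfl (zpowers_le.2 (mul_mem uU uU'))).trans cU)
      (comm_zp_zp_le (nW _ sT.2) (nW _ (QP _ (mul_mem uQ uQ'))) ?_)
    rw [show ⁅s, u * (s * u * s⁻¹)⁆ = s * u * s⁻¹ * ⁅s * s, u⁆ * (s * u * s⁻¹)⁻¹ * ⁅s * u * s⁻¹, u⁆ by
      simp only [commutatorElement_def]; group]
    exact mul_mem (conj_mem (nW _ (QP _ uQ')) (cU (comm_mem (mul_Q h.toS3G (A.ad 2) sT' sT' hsn hsn) uU)))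
      (cU (comm_mem uQ' uU))
  have h2 : u * (s * u * s⁻¹) ∉ Q(f 4) := fun e => by
    obtain ⟨m1, m2, m3⟩ := moves h.toS3G (A.s 2) (A.ad 3) (A.nq 2) uT.1 uT.2 hn
    have e1 : u • u • f 4 = f 4 := by rw [smul_smul, h.sq hu, one_smul]
    rw [show u * (s * u * s⁻¹) = u * s * u⁻¹ * s⁻¹ by rw [h.inv_eq hu]; group] at e
    by_cases e2 : s ∈ Q(f 4)
    · exact hsn (h.par2 hN hB (A.s 2) (A.ad 3) m1 (A.nq 2) m3 m2 hs e2
        (cjQ' (g := u) (by rw [e1]; exact (mul_mem_cancel_right (inv_mem e2)).1 e)))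
    · refine hsn (h.par1 hT hN hB (A.s 2) (A.ad 3) m1 (A.nq 2) m3 m2 hs e2 fun e3 => e2 ?_)
      exact inv_mem_iff.1 ((mul_mem_cancel_left (e1 ▸ cjQ e3 u)).1 e)
  generalize u * (s * u * s⁻¹) = t at tT h1 h2
  have h3 : ∀ x ∈ Q(f 3), ⁅x, t⁆ ∈ UU G Γ (f 4) := fun x hx =>
    h.VV_UU le_rfl (A.s 3) (le_VV (A.s 2) (h1 (comm_mem (h.Q_le' (A.ad 2) hx) (mem_zpowers t))))
  refine h.bound hT (A.al h.toS3B hf.at0 4) (A.s 3) (h.card_VV (by omega) hT hN hB _) tT h2 fun x hx => ?_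
  by_cases e : x ∈ Q(f 3)
  · exact h3 x e
  obtain ⟨g, hg, e1⟩ := h.nbr (A.s 2) (A.ad 3)
  have v1 : g * u * g⁻¹ ∈ UU G Γ (f 4) := h.VV_UU le_rfl (e1 ▸ h.smul g (A.s 1)) (by
    rw [VV_smul h.toS3G]; exact conj_mem_cj.2 uV)
  have v2 : g * u * g⁻¹ ∉ Q(f 3) := fun e => hn (by simpa [mul_assoc] using conj_mem' (nQ _ hg) e)
  generalize g * u * g⁻¹ = v at v1 v2
  have v3 : v ∈ Q(f 4) := UU_le (fun _ _ => inf_le_right) v1
  have h4 := h3 _ (mul_Q h.toS3G (A.ad 3) (h.Q_le' (A.ad 3) v3) (h.Q_le' (A.ad 3) hx) v2 e)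
  rw [show ⁅x, t⁆ = v⁻¹ * (⁅v * x, t⁆ * (t * v * t⁻¹)) by simp only [commutatorElement_def]; group]
  exact mul_mem (inv_mem v1) (mul_mem h4 (conj_mem (nUU h.toS3G _ tT.1) v1))

theorem S3B.main (h : S3B G Γ) (hb : Γ.Adj a b) : #(P(a) ⊓ P(b)) ≤ 128 := by
  obtain ⟨n, f, hc, hf, hn⟩ := h.exists_crit
  rcases Nat.mod_two_eq_zero_or_one n with he | he
  · rcases (by omega : n = 2 ∨ 4 ≤ n) with rfl | h4
    · exact (card_T_eq h.toS3G (hf.arc.s 1) hb).trans_le (hc.bound_two hf)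
    · obtain ⟨k, rfl⟩ : ∃ k, n = k + 4 := ⟨n - 4, by omega⟩
      exact (hc.even_big hf (by omega)).elim
  rcases (by omega : n = 1 ∨ 3 ≤ n) with rfl | h3
  · exact (hc.ne_one hf).elim
  obtain ⟨k, rfl⟩ : ∃ k, n = k + 3 := ⟨n - 3, by omega⟩
  obtain ⟨F, hF, -⟩ := hc.exists_cr2 hf (by omega)
  have hT := hc.odd_two hF (by omega)
  rcases (by omega : k = 0 ∨ 2 ≤ k) with rfl | h2
  · exact (card_T_eq h.toS3G (hF.arc.s 3) hb).trans_le (hc.bound_three hF)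
  obtain ⟨k, rfl⟩ : ∃ j, k = j + 2 := ⟨k - 2, by omega⟩
  have hN := CDB.nn_big hc hF (by omega) hT
  rcases (by omega : k = 0 ∨ 2 ≤ k) with rfl | h2
  · exact (CDB.no_five hc hf hT hN).elim
  obtain ⟨k, rfl⟩ : ∃ j, k = j + 2 := ⟨k - 2, by omega⟩
  exact (CDB.no_seven hc hF (by omega) hT hN).elim

theorem bt_iff (hT : Syl 2 T P(a)) : Bt G a ↔ P(a) ≤ C(Ω[2](Z(T))) :=
  ⟨fun h => centsS (le_Vz hT) h, fun h => centsS (Vz_le_of_nrm hT (cents_norm h) le_rfl) h⟩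

theorem graph_bound (h : S3G G Γ) (hb : Γ.Adj a b) : #(P(a) ⊓ P(b)) ≤ 128 := by
  by_cases hc : ∀ a : V, P(a) ⊓ C(Q(a)) ≤ Q(a)
  swap
  · push Not at hc
    obtain ⟨c, hc⟩ := hc
    obtain ⟨d, hd⟩ := h.ex c
    obtain ⟨c₁, h1, n1⟩ := h.other hd.symm
    obtain ⟨c₂, h2, n2, n3⟩ := third h hd.symm h1 n1
    have hK : Q(d) ⊓ Q(c) ⊓ Q(c₁) ⊓ Q(c₂) = ⊥ := by
      have nK : P(d) ≤ N(Q(d) ⊓ Q(c) ⊓ Q(c₁) ⊓ Q(c₂)) := fun g hg => mem_nrm.2 fun x hx => by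
        have key : ∀ {e}, Γ.Adj d e → g * x * g⁻¹ ∈ Q(e) := fun {e} he => by
          rw [← smul_inv_smul g e]
          refine cjQ ?_ g
          rcases three h hd.symm h1 h2 n1 n2 n3 (h.adj_smul (inv_mem hg) he) with e | e | e <;> rw [e]
          exacts [hx.1.1.2, hx.1.2, hx.2]
        exact ⟨⟨⟨conj_mem (nQ d hg) hx.1.1.1, key hd.symm⟩, key h1⟩, key h2⟩
      have l : Q(d) ⊓ Q(c) ⊓ Q(c₁) ⊓ Q(c₂) ≤ Q(c) := inf_le_left.trans (inf_le_left.trans inf_le_right)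
      exact h.core hd (l.trans (h.Q_le hd)) (((h.s3 c).nml_sup (h.syl hd) (subcent_nml (nQ c)) hc).ge.trans
        (sup_le (inf_le_right.trans nK) (inf_le_right.trans (cents_norm (cen_anti l))))) nK
    have c1 := card_le_two h hd (h.Q_le' hd)
    have c2 := card_le_two h h1.symm ((inf_le_left : Q(d) ⊓ Q(c) ≤ _).trans (h.Q_le' h1.symm))
    have c3 := card_le_two h h2.symm ((inf_le_left.trans inf_le_left : Q(d) ⊓ Q(c) ⊓ Q(c₁) ≤ _).trans (h.Q_le' h2.symm))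
    rw [hK, card_bot'] at c3
    rw [card_T_eq h hd.symm hb, card_T h hd.symm]
    omega
  have typ : ∀ c, (Bt G c ↔ Bt G a) ∨ (Bt G c ↔ Bt G b) := fun c => by
    obtain ⟨g, rfl | rfl⟩ := h.edge c hb
    exacts [.inl (bt_smul g), .inr (bt_smul g)]
  have both : ∀ {c d : V}, Γ.Adj c d → Bt G c → Bt G d → False := fun {c d} hd h1 h2 => by
    have := h.core_cen hd ((Ohm_le _ _).trans inf_le_left) ((bt_iff (h.syl hd)).1 h1)
      (inf_comm P(d) P(c) ▸ (bt_iff (h.syl hd.symm)).1 h2)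
    exact (h.syl hd).pi.Ohm_center_ne_bot (fun e => (h.s3 c).not_le (h.syl hd) (e ▸ bot_le)) this
  by_cases h0 : ¬ Bt G a ∧ ¬ Bt G b
  · have hC : S3C G Γ := ⟨h, hc, fun c T hT e => by
      have := (bt_iff hT).2 e
      rcases typ c with e | e
      exacts [h0.1 (e.1 this), h0.2 (e.1 this)]⟩
    have c1 : #P(a) ≤ 48 := by
      rcases hC.iso hb with ⟨⟨e⟩, -⟩ | ⟨⟨e⟩, -⟩ <;> rw [Nat.card_congr e.toEquiv] <;>
        simp [Fintype.card_perm, Nat.factorial]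
    exact (card_le inf_le_left).trans (c1.trans (by omega))
  have key : ∀ {a b d : V} (g : G), Γ.Adj a b → Γ.Adj (g • a) d → (Bt G d ↔ Bt G b) := fun g hb hd => by
    obtain ⟨k, -, rfl⟩ := h.nbr (h.smul g hb) hd
    rw [bt_smul, bt_smul]
  refine S3B.main ⟨h, hc, fun {c d} hd => ?_⟩ hb
  have := both hb
  obtain ⟨g, rfl | rfl⟩ := h.edge c hb
  · rw [key g hb hd, bt_smul]; tauto
  · rw [key g hb.symm hd, bt_smul]; tauto

theorem amalgam_bound {P₁ P₂ : Subgroup G} (h : S3Am P₁ P₂ T) : #T ≤ 128 := by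
  by_cases hne : P₁ = P₂
  · have h1 := h.core _ (pcore_le_syl h.t₁) (pcore_nrm _ _) (hne ▸ pcore_nrm _ _)
    have h2 := card_mul_relIndex (pcore_le_syl h.t₁)
    rw [(h.s₁.idx h.t₁).1, h1, card_bot'] at h2
    omega
  wlog hgen : P₁ ⊔ P₂ = ⊤ generalizing G
  · have l1 : P₁ ≤ P₁ ⊔ P₂ := le_sup_left
    have l2 : P₂ ≤ P₁ ⊔ P₂ := le_sup_right
    have := this (h.so l1 l2) (fun e => hne (by rw [← map_so l1, e, map_so l2])) (by rw [← so_sup l1 l2, subgroupOf_self])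
    rwa [Nat.card_congr (subgroupOfEquivOfLe (h.t₁.le.trans l1)).toEquiv] at this
  have := graph_bound (h.graph hne hgen) (H22.cg_adj_edge 1)
  rwa [H22.cg_stab_inl, H22.cg_stab_inr, H22.cj_one, H22.cj_one, h.inf hne] at this

end Cfsg.Agent.H5d
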