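import Mathlib
import Cfsg.Agent.H7.GlP
import Cfsg.Agent.H5.HH

/-! The `p`-part of the index of `O_p(G)` in a `p`-solvable linear group. -/

set_option autoImplicit false

namespace Cfsg.Agent.H5h

open Cfsg Cfsg.Agent.H7 Subgroup
open scoped Pointwise

variable {G N : Type*} [Group G] [Group N] [Finite G] [Finite N]

theorem map_ind (τ : ℂ →+* ℂ) (f : N →* G) (θ : N → ℂ) (g : G) :
    τ (ind f θ g) = ind f (fun n => τ (θ n)) g := by
  classical
  have := Fintype.ofFinite G
  have := Fintype.ofFinite N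
  simp only [ind_def, map_mul, map_inv₀, map_natCast, map_sum, apply_ite τ, map_zero]

/-- Every character over a normal Hall subgroup may be replaced by a smaller one with values in
the cyclotomic field of the subgroup. -/
theorem exists_rat_char {f : N →* G} (hf : IsNE f) (hcop : f.range.index.Coprime (Nat.card N))
    {χ : G → ℂ} (hχ : IsCharacter G χ) : ∃ ψ : G → ℂ, IsCharacter G ψ ∧ (ψ 1).re ≤ (χ 1).re ∧
      (∀ n, ψ (f n) = ψ 1 → χ (f n) = χ 1) ∧
      ∀ τ : ℂ →+* ℂ, (∀ z : ℂ, z ^ Nat.card N = 1 → τ z = z) → ∀ g, τ (ψ g) = ψ g := by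
  refine H6.isCharacter_induction (P := fun χ => ∃ ψ : G → ℂ, IsCharacter G ψ ∧
    (ψ 1).re ≤ (χ 1).re ∧ (∀ n, ψ (f n) = ψ 1 → χ (f n) = χ 1) ∧
      ∀ τ : ℂ →+* ℂ, (∀ z : ℂ, z ^ Nat.card N = 1 → τ z = z) → ∀ g, τ (ψ g) = ψ g) ?_ ?_ ?_ hχ
  · exact ⟨0, char_zero, le_rfl, fun _ _ => rfl, fun τ _ g => map_zero τ⟩
  · intro χ hχ
    obtain ⟨θ, hθ, h0⟩ := exists_irr_under f hχ
    obtain ⟨d, hd⟩ := char_one_nat (irr_char hθ)
    let T := hf.inertia θ
    let k : N →* T := f.codRestrict T (hf.apply_mem_inertia (irr_cf hθ))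
    have hk : IsNE k := isNE_codRestrict hf _ _
    have hkf : ∀ n, T.subtype (k n) = f n := fun _ => rfl
    have hi : k.range.index ∣ f.range.index := by
      have h1 := card_mul_index_range hk.inj
      have h2 := card_mul_index_range hf.inj
      have h3 := T.card_mul_index
      refine ⟨T.index, Nat.eq_of_mul_eq_mul_left (Nat.card_pos (α := N)) ?_⟩
      rw [h2, ← mul_assoc, h1, h3]
    have hc : k.range.index.Coprime (Nat.card N) := hcop.coprime_dvd_left hi
    have hdN := H6.degree_dvd_card hθ hd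
    obtain ⟨η, hη, h1, h2⟩ := hk.exists_ext_of_hall hc hθ (hf.inv_inertia (irr_cf hθ)) hd hdN
    have h3 : (fun n => η (k n)) = θ := funext h1
    have h4 : ip (fun n => η (k n)) θ = 1 := by rw [h3, ip_irr_self hθ]
    have hT : hf.inertia θ ≤ T.subtype.range := by rw [range_subtype]
    have h5 := hf.corr_irr T.subtype_injective hkf hθ hT hη (by rw [h4]; exact one_ne_zero)
    have h6 := hf.corr_ip T.subtype_injective hkf hθ hT hη (by rw [h4]; exact one_ne_zero)
    rw [h4] at h6
    have h7 := hf.clifford h5 hθ (by rw [h6]; exact one_ne_zero)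
    rw [h6, one_smul] at h7
    have h8 := hf.clifford hχ hθ h0
    obtain ⟨e, he⟩ := ip_char_nat (char_comp f (irr_char hχ)) (irr_char hθ)
    rw [he, ← h7] at h8
    have h9 : ∀ n, χ (f n) = e * ind T.subtype η (f n) := fun n => congrFun h8 n
    have h10 : χ 1 = e * ind T.subtype η 1 := by simpa using h9 1
    refine ⟨ind T.subtype η, irr_char h5, ?_, fun n hn => by rw [h9, hn, h10], fun τ hτ g => ?_⟩
    · obtain ⟨c, hc⟩ := char_one_nat (irr_char h5)
      have e0 : e ≠ 0 := fun e0 => h0 (by rw [he, e0, Nat.cast_zero])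
      rw [h10, hc, ← Nat.cast_mul, Complex.natCast_re, Complex.natCast_re, Nat.cast_le]
      exact Nat.le_mul_of_pos_left _ (Nat.pos_of_ne_zero e0)
    · have h11 : k.range.index.Coprime (detOrder η) := by
        rw [h2]; exact hc.coprime_dvd_right (detOrder_dvd_card θ)
      rw [map_ind, hk.canonical_ext_unique hθ hd (hc.coprime_dvd_right hdN)
        (H6.isCharacter_map τ (irr_char hη)) (irr_char hη) (fun n => ?_) h1
        (h11.coprime_dvd_right (detOrder_map_dvd τ (irr_char hη))) h11]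
      rw [h1, H6.map_apply_eq_pow τ (m := 1) (by simpa using hτ) (H6.isGen_of_irr hθ)
        pow_card_eq_one', pow_one]
  · rintro χ χ' - - ⟨ψ, h1, h2, h3, h4⟩ ⟨ψ', h1', h2', h3', h4'⟩
    refine ⟨ψ + ψ', char_add h1 h1', by simpa using add_le_add h2 h2', fun n hn => ?_,
      fun τ hτ g => by rw [Pi.add_apply, map_add, h4 τ hτ, h4' τ hτ]⟩
    obtain ⟨a, b⟩ := (H6.isCharacter_add_eq_iff h1 h1' (f n)).mp hn
    rw [Pi.add_apply, Pi.add_apply, h3 n a, h3' n b]

variable {p : ℕ}

theorem lower_bound (hp : p.Prime) {ψ : G → ℂ} (hψ : IsCharacter G ψ) {g : G} {r : ℕ}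
    (hg : orderOf g = p ^ r) (h : ∀ m : ℕ, m.Coprime (orderOf g) → ψ (g ^ m) = ψ g) {t : ℤ}
    (ht : ψ g = t) {d : ℕ} (hd : ψ 1 = d) : 0 ≤ (d : ℤ) + (p - 1) * t := by
  have hp1 : (1 : ℤ) ≤ p := by exact_mod_cast hp.one_le
  rcases r with _ | r
  · rw [pow_zero, orderOf_eq_one_iff] at hg
    rw [hg, hd] at ht
    have : t = d := by exact_mod_cast ht.symm
    rw [this]; positivity
  have := Fintype.ofFinite (zpowers g)
  obtain ⟨a, ha⟩ := ip_char_nat (char_comp (zpowers g).subtype hψ) char_one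
  rw [ip_def, inv_mul_eq_iff_eq_mul₀ (card_ne_zero' _)] at ha
  simp only [Pi.one_apply, map_one, mul_one, coe_subtype] at ha
  rw [← (finEquivZPowers (isOfFinOrder_of_finite g)).sum_comp] at ha
  simp only [finEquivZPowers_apply] at ha
  rw [Fin.sum_univ_eq_sum_range (fun k => ψ (g ^ k))] at ha
  have h1 : (0 : ℝ) ≤ ∑ k ∈ Finset.range (orderOf g), (ψ (g ^ k)).re := by
    rw [← Complex.re_sum, ha, ← Nat.cast_mul, Complex.natCast_re]; positivity
  have h2 : ∀ k ∈ Finset.range (orderOf g), (ψ (g ^ k)).re ≤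
      d + if (orderOf g).Coprime k then ((t : ℝ) - d) else 0 := fun k _ => by
    split_ifs with hk
    · rw [h k hk.symm, ht]; simp
    · rw [add_zero]; exact (Complex.re_le_norm _).trans (H6.isCharacter_norm_le' hψ hd _)
  have h3 := h1.trans (Finset.sum_le_sum h2)
  rw [Finset.sum_add_distrib, ← Finset.sum_filter, Finset.sum_const, Finset.sum_const,
    Finset.card_range, ← Nat.totient_eq_card_coprime, hg, Nat.totient_prime_pow_succ hp,
    nsmul_eq_mul, nsmul_eq_mul] at h3
  push_cast [Nat.cast_sub hp.one_le] at h3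
  have h4 : (0 : ℝ) < (p : ℝ) ^ r := pow_pos (by exact_mod_cast hp.pos) r
  have h5 : (0 : ℝ) ≤ (p : ℝ) ^ r * (d + (p - 1) * t) := by
    refine h3.trans_eq ?_
    rw [pow_succ]; ring
  exact_mod_cast (mul_nonneg_iff_of_pos_left h4).mp h5

/-- The kernel of a rational character of a `p`-group has bounded index. -/
theorem index_dvd (hp : p.Prime) (hG : IsPGroup p G) {ψ : G → ℂ} (hψ : IsCharacter G ψ)
    (h : ∀ (g : G) (m : ℕ), m.Coprime (orderOf g) → ψ (g ^ m) = ψ g) {d : ℕ} (hd : ψ 1 = d) :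
    (H6.charKer ψ).index ∣ p ^ (d / (p - 1)) * (d / (p - 1)).factorial := by
  classical
  have := Fact.mk hp
  have := Fintype.ofFinite G
  set m := d / (p - 1) with hm
  let F : G → ℂ := ∏ y ∈ Finset.range m, (((d - p * (y + 1) : ℤ) : ℂ) • (1 : G → ℂ) - ψ)
  have hF : IsGeneralizedCharacter G F :=
    Finset.prod_induction _ (IsGeneralizedCharacter G) (fun _ _ => H6.isGen_mul) H6.isGen_one
      fun y _ => H6.isGen_sub (H6.isGen_intCast_smul _ H6.isGen_one) (H6.isGen_of_isCharacter hψ)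
  have h1 : ∀ g, F g = if g ∈ H6.charKer ψ then ((-p : ℂ) ^ m * m.factorial) else 0 := fun g => by
    simp only [F, Finset.prod_apply, Pi.sub_apply, Pi.smul_apply, Pi.one_apply, smul_eq_mul,
      mul_one]
    split_ifs with hg
    · rw [H6.apply_eq_of_mem_charKer hg, hd, ← Finset.prod_range_add_one_eq_factorial]
      push_cast
      rw [← Finset.card_range m, ← Finset.prod_const, Finset.card_range, ← Finset.prod_mul_distrib]
      exact Finset.prod_congr rfl fun y _ => by ring
    · obtain ⟨t, ht⟩ := H6.exists_int_of_pow_eq (H6.isGen_of_isCharacter hψ) g (h g)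
      obtain ⟨r, hr⟩ := (IsPGroup.iff_orderOf.mp hG) g
      have h2 := lower_bound hp hψ hr (h g) ht hd
      obtain ⟨n, ε, h3, h4, h5⟩ := H6.isCharacter_exists_roots hψ g
      obtain rfl : n = d := by exact_mod_cast h3.symm.trans hd
      obtain ⟨y, hy⟩ := dvd_card_sub_of_roots (k := r) hp (Finset.univ.val.map ε) (fun ω hω => by
        obtain ⟨i, -, rfl⟩ := Multiset.mem_map.mp hω
        rw [← hr, h4]) (t := t) (by
          rw [← ht, ← zpow_one g, h5 1]; simp only [zpow_one]; rfl)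
      simp only [Multiset.card_map, Finset.card_val, Finset.card_univ, Fintype.card_fin] at hy
      have h6 : t ≤ n := by
        have := (Complex.re_le_norm _).trans (H6.isCharacter_norm_le' hψ hd g)
        rw [ht] at this
        exact_mod_cast this
      have h7 : t ≠ n := fun e => hg ((H6.mem_charKer_iff hψ).mpr (by rw [ht, hd, e]; simp))
      have hp1 : (2 : ℤ) ≤ p := by exact_mod_cast hp.two_le
      have h8 : 0 < y := by
        by_contra hc
        have : (p : ℤ) * y ≤ 0 := mul_nonpos_of_nonneg_of_nonpos (by omega) (by omega)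
        omega
      obtain ⟨y, rfl⟩ : ∃ z : ℕ, y = z + 1 := ⟨(y - 1).toNat, by omega⟩
      have h9 : (y + 1) * (p - 1) ≤ n := by
        have : ((y : ℤ) + 1) * (p - 1) ≤ n := by nlinarith
        zify [hp.one_le]; exact this
      refine Finset.prod_eq_zero (i := y) (Finset.mem_range.mpr ?_) ?_
      · exact (Nat.le_div_iff_mul_le (Nat.sub_pos_of_lt hp.one_lt)).mpr h9
      · rw [ht, ← Int.cast_sub, Int.cast_eq_zero]; omega
  obtain ⟨c, hc⟩ := ip_gen_int hF H6.isGen_one
  rw [ip_def, inv_mul_eq_iff_eq_mul₀ (card_ne_zero' _)] at hc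
  simp only [map_one, mul_one, h1, ← Finset.sum_filter, Finset.sum_const, nsmul_eq_mul] at hc
  have h2 : (Finset.univ.filter fun g => g ∈ H6.charKer ψ).card = Nat.card (H6.charKer ψ) := by
    rw [Nat.card_eq_fintype_card, Fintype.card_subtype]
  rw [h2, ← (H6.charKer ψ).card_mul_index, Nat.cast_mul, mul_assoc,
    mul_right_inj' (card_ne_zero' _)] at hc
  have h3 : ((H6.charKer ψ).index : ℤ) ∣ (-p : ℤ) ^ m * m.factorial :=
    ⟨c, by exact_mod_cast hc⟩
  rw [neg_pow, mul_assoc, (isUnit_one.neg.pow m).dvd_mul_left] at h3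
  exact_mod_cast h3

theorem fact_le (hp : p.Prime) {a d n : ℕ} (hdn : d ≤ n)
    (h : a ∣ p ^ (d / (p - 1)) * (d / (p - 1)).factorial) :
    a.factorization p ≤ ∑ i ∈ Finset.range (n + 1), n / ((p - 1) * p ^ i) := by
  have h0 : p ^ (d / (p - 1)) * (d / (p - 1)).factorial ≠ 0 :=
    mul_ne_zero (pow_ne_zero _ hp.ne_zero) (Nat.factorial_ne_zero _)
  refine (Nat.factorization_le_factorization_of_dvd_right h ?_ h0).trans ?_
  · rintro rfl; exact h0 (zero_dvd_iff.mp h)
  have hl : Nat.log p (d / (p - 1)) < n + 1 :=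
    Nat.lt_succ_of_le ((Nat.log_le_self _ _).trans ((Nat.div_le_self _ _).trans hdn))
  rw [Nat.factorization_mul (pow_ne_zero _ hp.ne_zero) (Nat.factorial_ne_zero _),
    Finsupp.add_apply, hp.factorization_pow, Finsupp.single_eq_same,
    Nat.factorization_factorial hp hl, Finset.range_eq_Ico,
    Finset.sum_eq_sum_Ico_succ_bot (Nat.succ_pos n)]
  refine add_le_add (by simpa using Nat.div_le_div_right hdn) (Finset.sum_le_sum fun i _ => ?_)
  rw [Nat.div_div_eq_div_mul]
  exact Nat.div_le_div_right hdn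

theorem bound_aux (hp : p.Prime) {χ : G → ℂ} (hχ : IsCharacter G χ)
    (hfaith : ∀ g : G, χ g = χ 1 → g = 1) {n : ℕ} (hn : χ 1 = n) {Q : Type*} [Group Q]
    (φ : G →* Q) (hφ : Function.Surjective φ) (H : Subgroup G) [H.Normal]
    (hH : (Nat.card H).Coprime p)
    (hc : ∀ x : G, (∃ r, orderOf x = p ^ r) → x ∈ centralizer (H : Set G) → φ x = 1) :
    (Nat.card Q).factorization p ≤ ∑ i ∈ Finset.range (n + 1), n / ((p - 1) * p ^ i) := by
  have := Fact.mk hp
  have := Finite.of_surjective φ hφ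
  obtain ⟨P⟩ : Nonempty (Sylow p G) := inferInstance
  let f : H →* ↥(H ⊔ P) := inclusion le_sup_left
  let j : P →* ↥(H ⊔ P) := inclusion le_sup_right
  have hf : IsNE f := isNE_inclusion_of_normal _
  obtain ⟨s, hs⟩ := IsPGroup.iff_card.mp P.2
  have hcop : f.range.index.Coprime (Nat.card H) := by
    have : f.range.index = H.relIndex P := by
      rw [inclusion_range, ← relIndex_sup_left P H]; rfl
    rw [this]
    exact ((hH.symm.pow_left s).coprime_dvd_left (hs ▸ relIndex_dvd_card H P))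
  obtain ⟨ψ, h1, h2, h3, h4⟩ := exists_rat_char hf hcop (char_comp (H ⊔ P : Subgroup G).subtype hχ)
  obtain ⟨d, hd⟩ := char_one_nat h1
  have hdn : d ≤ n := by
    simp only [map_one, hd, hn, Complex.natCast_re] at h2
    exact_mod_cast h2
  have h5 := index_dvd hp P.2 (char_comp j h1) (d := d) (fun g m hm => by
    obtain ⟨r, hr⟩ := (IsPGroup.iff_orderOf.mp P.2) g
    obtain ⟨τ, a, b⟩ := H6.exists_ringEquiv_pow_fix (orderOf_pos g).ne'
      (Nat.card_pos (α := H)).ne' (hr ▸ hH.symm.pow_left r) hm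
    rw [← H6.map_apply_eq_pow (τ : ℂ →+* ℂ) a (H6.isGen_of_isCharacter (char_comp j h1))
      (pow_orderOf_eq_one g)]
    exact h4 τ b _) (by rw [map_one, hd])
  have h6 : H6.charKer (fun x => ψ (j x)) ≤ φ.ker.subgroupOf P := fun x hx => by
    rw [H6.charKer_comp j h1] at hx
    refine hc x ?_ fun y hy => ?_
    · obtain ⟨r, hr⟩ := (IsPGroup.iff_orderOf.mp P.2) x
      exact ⟨r, by rw [← hr, orderOf_coe]⟩
    have hm : y * x * y⁻¹ * (x : G)⁻¹ ∈ H := by
      have := mul_mem hy (‹H.Normal›.conj_mem _ (inv_mem hy) x)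
      simpa [mul_assoc] using this
    have h7 : f ⟨_, hm⟩ ∈ H6.charKer ψ :=
      mul_mem ((H6.charKer_normal (char_cf h1)).conj_mem _ hx (f ⟨y, hy⟩)) (inv_mem hx)
    have h8 := hfaith _ (h3 _ (H6.apply_eq_of_mem_charKer h7))
    change y * x * y⁻¹ * (x : G)⁻¹ = 1 at h8
    rwa [mul_inv_eq_one, mul_inv_eq_iff_eq_mul] at h8
  have h7 : φ.ker.relIndex P = p ^ (Nat.card Q).factorization p := by
    rw [relIndex_ker, ← (P.mapSurjective hφ).card_eq_multiplicity]; rfl
  have h8 := fact_le hp hdn ((index_dvd_of_le h6).trans h5)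
  change (φ.ker.relIndex P).factorization p ≤ _ at h8
  rwa [h7, hp.factorization_pow, Finsupp.single_eq_same] at h8

theorem s4472 (χ : G → ℂ) (hχ : IsCharacter G χ) (hfaith : ∀ g : G, χ g = χ 1 → g = 1) (n : ℕ)
    (hn : charDegree χ = n) (p : ℕ) (hp : p.Prime) (hsolv : IsPSolvable p G) :
    ((pCore p G).index).factorization p ≤ ∑ i ∈ Finset.range (n + 1), n / ((p - 1) * p ^ i) := by
  have := Fact.mk hp
  have hn' : χ 1 = n := by
    obtain ⟨c, hc⟩ := char_one_nat hχ
    rw [hc, ← hn, charDegree, hc]; simp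
  set O := pCore p G with hO
  have : O.Normal := sSup_normal _ fun _ h => h.1
  have pO : IsPGroup p O := H2.pCore_isPGroup
  let π := QuotientGroup.mk' O
  have hπ : Function.Surjective π := QuotientGroup.mk'_surjective O
  set R := pPrimeCore p (G ⧸ O) with hR
  have : R.Normal := sSup_normal _ fun _ h => h.1
  have hRc : (Nat.card R).Coprime p := H2.pPrimeCore_coprime
  have hOM : O ≤ R.comap π := fun x hx => by
    rw [mem_comap, show π x = 1 from (QuotientGroup.eq_one_iff x).mpr hx]; exact one_mem _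
  have hi : O.relIndex (R.comap π) = Nat.card R := by
    have := relIndex_ker (R.comap π) π
    rwa [map_comap_eq_self_of_surjective hπ, QuotientGroup.ker_mk'] at this
  obtain ⟨s, hs⟩ := IsPGroup.iff_card.mp pO
  obtain ⟨L, h1, h2, h3, h4, -⟩ := H1.exists_complement_in O (R.comap π) hOM
    le_normalizer_of_normal (by rw [hi, hs]; exact hRc.symm.pow_left s)
  rw [hi] at h4
  let T := normalizer (L : Set G)
  have hT : Function.Surjective (π.comp T.subtype) := fun q => by
    obtain ⟨g, rfl⟩ := hπ q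
    obtain ⟨k, hk, h5⟩ := H1.exists_conj_le_of_le_sup L (MulAut.conj g • L) O
      le_normalizer_of_normal (by
        rw [h3]
        exact (pointwise_smul_le_pointwise_smul_iff.mpr h1).trans
          (Normal.conj_smul_eq_self g _).le)
      (by rw [H1.card_conj_smul, h4, hs]; exact hRc.pow_right s)
      (Or.inr (by have := pO.isNilpotent; infer_instance))
    rw [smul_smul, ← map_mul] at h5
    have h6 := eq_of_le_of_card_ge h5 (by rw [H1.card_conj_smul])
    refine ⟨⟨k * g, ?_⟩, ?_⟩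
    · exact H1.mem_normalizer_iff_conj_smul_eq.mpr h6
    · change π (k * g) = π g
      rw [map_mul, show π k = 1 from (QuotientGroup.eq_one_iff k).mpr hk, one_mul]
  have hLT : L ≤ T := le_normalizer
  refine bound_aux hp (char_comp T.subtype hχ) (fun g hg => Subtype.ext (hfaith _ hg)) hn' _ hT
    (L.subgroupOf T) (by rwa [H2.card_subgroupOf_of_le hLT, h4]) fun x ⟨r, hr⟩ hx => ?_
  have h5 : π x ∈ centralizer (R : Set (G ⧸ O)) := fun y hy => by
    obtain ⟨y, rfl⟩ := hπ y
    have h6 : y ∈ O ⊔ L := h3 ▸ hy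
    obtain ⟨a, ha, b, hb, rfl⟩ := mem_sup_of_normal_left.mp h6
    have := congrArg (fun z : T => π z) (hx ⟨b, hLT hb⟩ hb)
    rw [map_mul, show π a = 1 from (QuotientGroup.eq_one_iff a).mpr ha, one_mul]
    simpa using this
  have h6 := H5b.centralizer_pPrimeCore_le (H1.isPSolvable_quotient hp hsolv O)
    H2.pCore_quotient_self h5
  have h7 : orderOf (π x) ∣ p ^ r := hr ▸ orderOf_map_dvd (π.comp T.subtype) x
  exact orderOf_eq_one_iff.mp (Nat.eq_one_of_dvd_coprimes (hRc.pow_right r)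
    (R.orderOf_dvd_natCard h6) h7)

end Cfsg.Agent.H5h
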