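import Mathlib
import Cfsg.Agent.H5.NPC

/-! The characteristic subgroup `W(S)` (stable normal closure of `Ω₁(Z(S))`). -/

set_option autoImplicit false

namespace Cfsg.Agent.H5b

open Subgroup Cfsg.Agent.H22
open Cfsg.Agent.H18 hiding cj mem_cj conj_mem_cj conj_mem_cj_iff cj_le_iff cj_cj cj_one cj_inv_cj
  cj_cj_inv cj_mono cj_inf cj_sup cj_eq_iff cj_eq_of_mem cj_eq_of_normal cj_top card_cj isPGroup_cj
open scoped commutatorElement

universe u

section basic
variable {S S' H : Type u} [Group S] [Group S'] [Group H] {p : ℕ}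

/-- The image of `W` under every stable embedding is normal. -/
def SClosed (p : ℕ) (W : Subgroup S) : Prop :=
  ∀ (H : Type u) [Group H] (τ : S →* H), IsStableEmbedding p τ → (W.map τ).Normal

theorem snc_le {W : Subgroup S} (h1 : omegaOne p (center S) ≤ W) (h2 : SClosed p W) :
    stableNormalClosure p S ≤ W := sInf_le ⟨h1, h2⟩

theorem le_snc : omegaOne p (center S) ≤ stableNormalClosure p S := le_sInf fun _ h => h.1

theorem center_eq_inf : center S = ⊤ ⊓ C[(⊤ : Subgroup S)] := by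
  rw [top_inf_eq, coe_top, centralizer_univ]

theorem stableEmbedding_comp {τ : S →* H} (h : IsStableEmbedding p τ) (η : S' ≃* S) :
    IsStableEmbedding p (τ.comp η.toMonoidHom) := by
  obtain ⟨h1, h2, ⟨P, h3⟩, h4, h5, h6⟩ := h
  have ht : (⊤ : Subgroup S').map η.toMonoidHom = ⊤ := map_top_of_surjective _ η.surjective
  refine ⟨h1.comp η.injective, h2, ⟨P, ?_⟩, h4, ?_, fun V _ hV => h6 V ?_⟩
  · rw [h3, MonoidHom.range_comp, MonoidHom.range_eq_map η.toMonoidHom, ht, MonoidHom.range_eq_map]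
  · rwa [← map_map, ← Jn_top, map_Jn η.injective, ht, Jn_top]
  · rwa [← map_map, omegaCenterThompson_eq, (isFn_omega_ZJn p p).map η.injective, ht,
      ← omegaCenterThompson_eq] at hV

theorem map_omega_center (η : S ≃* S') :
    (omegaOne p (center S)).map η.toMonoidHom = omegaOne p (center S') := by
  rw [center_eq_inf, ((isFn_omegaOne p).comp isFn_center).map η.injective,
    map_top_of_surjective _ η.surjective, center_eq_inf]

theorem map_snc (η : S ≃* S') :
    (stableNormalClosure p S).map η.toMonoidHom = stableNormalClosure p S' := by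
  have key : ∀ {S S' : Type u} [Group S] [Group S'] (η : S ≃* S'),
      (stableNormalClosure p S).map η.toMonoidHom ≤ stableNormalClosure p S' := by
    intro S S' _ _ η
    refine le_sInf fun W hW => map_le_iff_le_comap.2 (snc_le
      (map_le_iff_le_comap.1 ((map_omega_center η).le.trans hW.1)) fun H _ τ hτ => ?_)
    have := hW.2 H _ (stableEmbedding_comp hτ η.symm)
    rwa [← map_map, map_equiv_eq_comap_symm'] at this
  refine le_antisymm (key η) fun x hx => ⟨η.symm x, key η.symm ⟨x, hx, rfl⟩, by simp⟩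

theorem sClosed_omegaCenterThompson : SClosed p (omegaCenterThompson p S) := fun H _ τ hτ => by
  haveI := hτ.2.2.2.2.1
  rw [omegaCenterThompson, ((isFn_omegaOne p).comp isFn_center).map hτ.1]
  exact ((isFn_omegaOne p).comp isFn_center).normal _

variable [Finite S]

theorem omega_center_le : omegaOne p (center S) ≤ omegaCenterThompson p S := by
  rw [omegaCenterThompson_eq, center_eq_inf]
  exact omegaOne_le_iff.2 fun x hx h => mem_omegaOne (omega_center_le_ZJn p ⊤ (mem_omegaOne hx h)) h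

theorem snc_le_omega : stableNormalClosure p S ≤ omegaCenterThompson p S :=
  snc_le omega_center_le sClosed_omegaCenterThompson

theorem sClosed_snc : SClosed p (stableNormalClosure p S) := fun H _ τ hτ => ⟨by
  rintro _ ⟨w, hw, rfl⟩ g
  obtain ⟨a, -, e⟩ := (sClosed_omegaCenterThompson H τ hτ).conj_mem _
    (mem_map_of_mem τ (snc_le_omega hw)) g
  refine ⟨a, mem_sInf.2 fun W hW => ?_, e⟩
  obtain ⟨b, hb, e'⟩ := (hW.2 H τ hτ).conj_mem _ (mem_map_of_mem τ (sInf_le hW hw)) g
  rwa [← hτ.1 (e'.trans e.symm)]⟩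

end basic

variable {G : Type u} [Group G] {p : ℕ}

/-- `W(S)` as a subgroup of the ambient group. -/
abbrev WS (p : ℕ) (S : Subgroup G) : Subgroup G := (stableNormalClosure p S).map S.subtype

theorem isFn_WS (p : ℕ) : IsFn.{u} fun _ _ S => WS p S where
  le := fun S => map_subtype_le _
  map := fun {G G'} _ _ f hf S => by
    rw [WS, WS, ← map_snc (S.equivMapOfInjective f hf), map_map, map_map]
    rfl

variable [Finite G] [hp : Fact p.Prime] {S U : Subgroup G}

omit hp in
theorem WS_le_omega (S : Subgroup G) : WS p S ≤ omegaOne p (ZJn p S) :=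
  map_omegaCenterThompson (n := p) S ▸ map_mono snc_le_omega

omit hp in
theorem elemAb_WS (S : Subgroup G) : IsElementaryAbelian p (WS p S) :=
  elemAb_le (elemAb_omegaOne (inf_le_right.trans (C_anti inf_le_left))) (WS_le_omega S)

theorem snc_ne_bot (hG : IsPGroup p G) [Nontrivial G] : stableNormalClosure p G ≠ ⊥ := fun h =>
  omegaOneCenter_ne_bot (hG.to_subgroup ⊤) top_ne_bot (eq_bot_iff.2
    ((center_eq_inf (S := G) ▸ le_snc).trans h.le))

theorem WS_ne_bot (hS : IsPGroup p S) (h : S ≠ ⊥) : WS p S ≠ ⊥ := by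
  haveI := (nontrivial_iff_ne_bot S).2 h
  rw [Ne, map_eq_bot_iff_of_injective _ S.subtype_injective]
  exact snc_ne_bot hS

/-- No element of `S` acts quadratically and nontrivially on `U`. -/
def NoQuad (S U : Subgroup G) : Prop := ∀ x ∈ S, ⁅⁅U, zpowers x⁆, zpowers x⁆ = ⊥ → x ∈ C[U]

theorem NoQuad.ncl (h : NoQuad S U) (hS : SylIn p S ⊤) [(ncl ⊤ U).Normal]
    (hst : IsPStableOn p (ncl ⊤ U)) : NoQuad S (ncl ⊤ U) := by
  intro a ha hq
  obtain ⟨S, rfl⟩ := hS.exists_sylow_top
  have h1 : a ∈ (S : Subgroup G) ⊓ H5.opMod p C[H22.ncl ⊤ U] := ⟨ha, hst a hq⟩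
  rw [← zpowers_le, le_centralizer_iff, ncl_le_iff]
  intro g _
  obtain ⟨n, hn, c, hc, rfl⟩ := (mem_sup_of_le_N (le_N_of_normal _ _)).1
    ((H5.frattini_opMod S C[H22.ncl ⊤ U]).ge (mem_top g))
  have h2 : n⁻¹ * a * n⁻¹⁻¹ ∈ C[U] := h _ (conj_mem_of_N (inv_mem hn) h1).1 (by
    have := congrArg (cj n⁻¹) hq
    rw [cj_commutator, cj_commutator, cj_zpowers, cj_bot, cj_eq_of_normal] at this
    exact eq_bot_iff.2 ((commutator_mono (commutator_mono (le_ncl _ _) le_rfl) le_rfl).trans this.le))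
  rw [cj_mul, cj_eq_of_mem_N (C_le_N _ (C_anti (le_ncl _ _) hc)), le_centralizer_iff, ← cj_C,
    zpowers_le, mem_cj]
  simpa using h2

theorem noQuad_snc : NoQuad ⊤ (stableNormalClosure p G) := by
  obtain ⟨U, ⟨h1, h2, h3⟩, hm⟩ := Set.Finite.exists_maximal (s := {U : Subgroup G |
    omegaOne p (center G) ≤ U ∧ U ≤ stableNormalClosure p G ∧ NoQuad ⊤ U}) (Set.toFinite _)
    ⟨_, le_rfl, le_snc, fun x _ _ y hy => (mem_center_iff.1 (omegaOne_le _ hy) x).symm⟩
  suffices h : SClosed p U by rwa [le_antisymm (snc_le h1 h) h2]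
  intro H _ τ hτ
  have hn := sClosed_snc H τ hτ
  obtain ⟨hi, _, ⟨P, hP⟩, -, -, hst⟩ := hτ
  haveI := normal_of_top_le_N (le_N_ncl ⊤ (U.map τ))
  have hV : H22.ncl ⊤ (U.map τ) ≤ (stableNormalClosure p G).map τ :=
    ncl_le (le_N_of_normal _ _) (map_mono h2)
  have hq : NoQuad P (U.map τ) := by
    rw [hP]
    rintro _ ⟨x, rfl⟩ hq
    refine map_C_le τ U (mem_map_of_mem τ (h3 x trivial ?_))
    rwa [← MonoidHom.map_zpowers, ← map_commutator, ← map_commutator,
      map_eq_bot_iff_of_injective _ hi] at hq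
  have hq' := hq.ncl (sylIn_top P) (hst _ (hV.trans (map_mono snc_le_omega)))
  have e : ((H22.ncl ⊤ (U.map τ)).comap τ).map τ = H22.ncl ⊤ (U.map τ) :=
    map_comap_eq_self (hV.trans (map_le_range _ _))
  have hU : U ≤ (H22.ncl ⊤ (U.map τ)).comap τ := map_le_iff_le_comap.1 (le_ncl _ _)
  have := hm ⟨h1.trans hU, (comap_mono hV).trans (comap_map_eq_self_of_injective hi _).le,
    fun x _ hx => by
      rw [← comap_C_map_inj hi, e]
      refine hq' _ (hP ▸ ⟨x, rfl⟩) ?_
      have := congrArg (Subgroup.map τ) hx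
      rwa [map_commutator, map_commutator, MonoidHom.map_zpowers, e, Subgroup.map_bot] at this⟩ hU
  rw [le_antisymm hU this, e]
  infer_instance

theorem noQuad_WS (S : Subgroup G) : NoQuad S (WS p S) := fun x hx hq =>
  map_C_le _ _ (mem_map_of_mem S.subtype (noQuad_snc (p := p) ⟨x, hx⟩ trivial (by
    rwa [← map_eq_bot_iff_of_injective _ S.subtype_injective, map_commutator, map_commutator,
      MonoidHom.map_zpowers])))

omit hp in
theorem WS_normal_of_J_normal (hc : C[pCore p G] ≤ pCore p G) (hS : SylIn p S ⊤)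
    (hJ : (Jn p S).Normal)
    (h : ∀ (V : Subgroup G) [V.Normal], V ≤ omegaOne p (ZJn p S) → IsPStableOn p V) :
    (WS p S).Normal := by
  refine sClosed_snc G S.subtype ⟨S.subtype_injective, inferInstance,
    by simpa using hS.exists_sylow_top, hc, ?_, fun V _ hV => h V ?_⟩
  · rwa [← thompsonOf_eq_Jn] at hJ
  · rwa [map_omegaCenterThompson] at hV

theorem N_J_le_N_WS (hc : C[pCore p G] ≤ pCore p G) (hS : SylIn p S ⊤)
    (h : ∀ (V : Subgroup N[Jn p S]) [V.Normal], V.map N[Jn p S].subtype ≤ omegaOne p (ZJn p S) →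
      IsPStableOn p V) : N[Jn p S] ≤ N[WS p S] := by
  have hN := (isFn_Jn p).le_N S
  have hO := (H21.pCore_le_syl hS).trans hN
  haveI := H21.normal_pCore (p := p) (G := G)
  have h1 : (pCore p G).subgroupOf N[Jn p S] ≤ pCore p _ :=
    H22.le_pCore inferInstance (isPGroup_subgroupOf pgrp_pCore)
  have := WS_normal_of_J_normal (p := p) (S := S.subgroupOf N[Jn p S])
    ((C_anti h1).trans (le_trans (by rw [C_subgroupOf hO]; exact comap_mono hc) h1))
    (H21.sylIn_subgroupOf (hS.mono hN le_top))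
    (by rw [← (isFn_Jn p).subgroupOf hN]; exact normal_subgroupOf_of_le_N le_rfl)
    fun V _ hV => h V (by
      rw [← (isFn_omega_ZJn p p).subgroupOf hN] at hV
      exact map_le_iff_le_comap.2 hV)
  rw [← (isFn_WS p).subgroupOf hN] at this
  exact (normal_subgroupOf_iff_le_normalizer (((isFn_WS p).le S).trans hN)).1 this

theorem quad_of_sq_eq_one {V : Subgroup G} (hV : IsElementaryAbelian 2 V) {a : G} (hN : a ∈ N[V])
    (ha : a ^ 2 = 1) : ⁅⁅V, zpowers a⁆, zpowers a⁆ = ⊥ := by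
  rw [← le_C_iff_comm, commutator_le]
  rintro v hv _ ⟨n, rfl⟩
  rw [mem_centralizer_iff]
  rintro _ ⟨m, rfl⟩
  refine (Commute.zpow_left ?_ m).eq
  have h1 : a * a = 1 := by rwa [sq] at ha
  have h2 : a⁻¹ = a := inv_eq_of_mul_eq_one_right h1
  have h3 : ∀ w ∈ V, w⁻¹ = w := fun w hw => inv_eq_of_mul_eq_one_right (by
    simpa [sq] using hV.2 w hw)
  rcases Int.even_or_odd' n with ⟨k, rfl | rfl⟩
  · simp only [zpow_mul, zpow_two, h1]
    simp
  · have h4 := (elemAb_iff.1 hV).1 hv _ (conj_mem_of_N hN hv)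
    simp only [zpow_add, zpow_mul, zpow_two, h1, one_zpow, one_mul, zpow_one,
      commutatorElement_def, h2, h3 v hv, Commute, SemiconjBy] at h4 ⊢
    calc a * (v * a * v * a) = a * v * a * v * a := by group
      _ = v * (a * v * a) * a := by rw [h4]
      _ = v * a * v * a * a := by group

theorem WS_normal (hc : C[pCore p G] ≤ pCore p G) (hS : SylIn p S ⊤) (h1 : WS p S ≤ pCore p G)
    (h2 : ∀ (V : Subgroup G) [V.Normal], IsElementaryAbelian p V → IsPStableOn p V)
    (h3 : N[Jn p S] ≤ N[WS p S]) : (WS p S).Normal := by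
  haveI := H21.normal_pCore (p := p) (G := G)
  haveI := normal_of_top_le_N (le_N_ncl ⊤ (WS p S))
  have hOS := H21.pCore_le_syl hS
  have hW := elemAb_WS (p := p) S
  have hVO : H22.ncl ⊤ (WS p S) ≤ pCore p G := ncl_le (le_N_of_normal _ _) h1
  have h4 : H22.ncl ⊤ (WS p S) ≤ C[WS p S] := ncl_le_iff.2 fun g _ x hx => by
    have hgO : cj g (WS p S) ≤ pCore p G := (cj_le_ncl (mem_top g)).trans hVO
    have hN : WS p S ≤ N[cj g (WS p S)] := by
      rw [← cj_N]
      exact h1.trans ((cj_eq_of_normal g _).ge.trans (cj_mono g (hOS.trans ((isFn_WS p).le_N S))))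
    refine noQuad_WS S x (hOS (hgO hx)) (quad_zpowers_of_mem (quad_of_le_N ?_ hN) hx)
    exact (elemAb_cj g hW).1
  have h5 : IsElementaryAbelian p (H22.ncl ⊤ (WS p S)) := by
    have h6 : H22.ncl ⊤ (WS p S) ≤ C[H22.ncl ⊤ (WS p S)] :=
      ncl_le (le_N_C (le_N_of_normal _ _)) (le_centralizer_iff.1 h4)
    refine elemAb_le (elemAb_omegaOne h6) (ncl_le ?_ (le_omegaOne (le_ncl _ _) hW.2))
    exact (le_N_of_normal _ _).trans (N_le_N_omegaOne _)
  have h6 := (noQuad_WS S).ncl hS (h2 _ h5)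
  have h7 : Jn p S ≤ C[H22.ncl ⊤ (WS p S)] := by
    by_cases hp2 : p = 2
    · subst hp2
      exact Jn_le_iff.2 fun A hA a ha => h6 a (hA.1 ha)
        (quad_of_sq_eq_one h5 (mem_N_of_normal _ _) (hA.2.2 a ha))
    by_contra h
    obtain ⟨A, a1, a2, a3⟩ := exists_quad_maxAb (dvd_choose_of hp2 (Or.inr rfl)) hS.isP
      (hVO.trans hOS) (le_N_of_normal _ _) (elemAb_iff.1 h5).1 h5.2 h
    exact a3 fun a ha => h6 a (a1.1 ha) (quad_zpowers_of_mem a2 ha)
  refine normal_of_top_le_N fun g _ => ?_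
  obtain ⟨a, ha, c, hc', rfl⟩ := factor_of_Jn_le_C hS h7 g
  exact mul_mem (h3 ha) (C_le_N _ (C_anti (le_ncl _ _) hc'))

theorem Stab.isPStableOn (h : Stab p G) (P : Subgroup G) [P.Normal] (hP : IsPGroup p P) :
    IsPStableOn p P := by
  intro a ha
  obtain ⟨e, m, hm, h1⟩ := Nat.exists_eq_pow_mul_and_not_dvd (orderOf_pos a).ne' p hp.out.ne_one
  obtain ⟨k, hk⟩ := IsPGroup.iff_card.1 hP
  have h2 : a ^ m ∈ H5.opMod p C[P] := h P hP _ (pgrp_zpowers (k := e)
    (by rw [← pow_mul, mul_comm, ← h1, pow_orderOf_eq_one])) (quad_zpowers_of_mem ha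
      (pow_mem (mem_zpowers a) m)) (mem_zpowers _)
  have h3 : a ^ p ^ k ∈ H5.opMod p C[P] := H5.le_opMod_self p _ fun v hv => by
    have c1 : Commute a ⁅v, a⁆ := le_C_iff_comm.2 ha
      (commutator_mem_commutator hv (mem_zpowers a)) a (mem_zpowers a)
    have c2 : ⁅v, a⁆ ∈ P := comm_le_of_le_N (le_N_of_normal _ _)
      (commutator_mem_commutator hv (mem_zpowers a))
    have c3 : ⁅v, a⁆ ^ p ^ k = 1 := congrArg Subtype.val (hk ▸ pow_card_eq_one' (x := (⟨_, c2⟩ : P)))
    rw [← mul_inv_eq_iff_eq_mul, ← conj_pow, show v * a * v⁻¹ = ⁅v, a⁆ * a by group,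
      c1.symm.mul_pow, c3, one_mul]
  obtain ⟨x, y, h4⟩ := Nat.isCoprime_iff_coprime.2
    (((Nat.Prime.coprime_iff_not_dvd hp.out).2 hm).pow_left k)
  have : a = (a ^ p ^ k) ^ x * (a ^ m) ^ y := by
    rw [← zpow_natCast, ← zpow_natCast, ← zpow_mul, ← zpow_mul, ← zpow_add, mul_comm _ x,
      mul_comm _ y, h4, zpow_one]
  exact H5.mem_opMod.1 (this ▸ mul_mem (zpow_mem h3 x) (zpow_mem h2 y))

theorem WS_normal_of_stab (hc : C[pCore p G] ≤ pCore p G) (hS : SylIn p S ⊤) (hst : Stab p G)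
    (h : Stab p N[Jn p S]) : (WS p S).Normal :=
  WS_normal hc hS (hst.le_pCore hc (hS.isP.to_le ((isFn_WS p).le S)) (elemAb_WS S).1
    ((H21.pCore_le_syl hS).trans ((isFn_WS p).le_N S)))
    (fun V _ hV => hst.isPStableOn V (elemAb_pgrp hV))
    (N_J_le_N_WS hc hS fun V _ hV => h.isPStableOn V (IsPGroup.of_equiv (hS.isP.to_le (hV.trans
      ((isFn_omega_ZJn p p).le S))) (V.equivMapOfInjective _ N[Jn p S].subtype_injective).symm))

theorem le_pCore_of_stableOnSection (hc : C[pCore p G] ≤ pCore p G)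
    [((frattini (pCore p G)).map (pCore p G).subtype).Normal]
    (h : IsPStableOnSection p (pCore p G) ((frattini (pCore p G)).map (pCore p G).subtype))
    {A : Subgroup G} (hq : ⁅⁅pCore p G, A⁆, A⁆ = ⊥) : A ≤ pCore p G := by
  intro a ha
  haveI := H21.normal_pCore (p := p) (G := G)
  obtain ⟨D, h1, -, ⟨k, h3⟩, h4⟩ := h a ((quad_zpowers_of_mem hq ha).le.trans bot_le)
  refine H22.le_pCore h1 (pgrp_iff.2 fun x hx => ?_) h4
  haveI : (sectionKernel (pCore p G) ((frattini (pCore p G)).map (pCore p G).subtype)).Normal :=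
    Normal.comap (H21.normal_C _) _
  have h5 := pow_relIndex_mem (H := sectionKernel (pCore p G)
    ((frattini (pCore p G)).map (pCore p G).subtype)) hx
  rw [h3] at h5
  obtain ⟨j, hj⟩ := exists_pow_coprime (p := p) (isOfFinOrder_of_finite (x ^ p ^ k))
  have h6 := H1.le_centralizer_of_commutator_le_frattini (zpowers ((x ^ p ^ k) ^ p ^ j))
    (pCore p G) (le_N_of_normal _ _)
    ((card_zpowers_coprime pgrp_pCore hj).coprime_dvd_right (card_subgroup_dvd_card _)) (by
      rw [← H1.map_mk_eq_bot_iff, map_commutator, MonoidHom.map_zpowers, ← le_C_iff_comm',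
        zpowers_le]
      exact pow_mem h5 (p ^ j))
  obtain ⟨l, hl⟩ := pgrp_iff.1 pgrp_pCore _ (hc (h6 (mem_zpowers _)))
  exact ⟨k + j + l, by rwa [pow_add, pow_add, pow_mul, pow_mul]⟩

end Cfsg.Agent.H5b
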